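import Mathlib
import Cfsg.Agent.Lib.Lead.Cores
import Cfsg.Agent.Lib.Helper2.PGroupFrattini
import Cfsg.Agent.Lib.Helper64.FratAut
import Cfsg.Agent.Lib.Helper76.PSolvable

/-!
# Cyclic normal subgroups of a Sylow subgroup (helper2, for S3788): preparation
-/

set_option autoImplicit false

namespace Cfsg.Agent.Lib.Helper2.CycNormal

open Cfsg Subgroup
open scoped commutatorElement

variable {G : Type*} [Group G]

theorem exists_last_pow' {p : ℕ} {M : Subgroup G} {x : G} (hx : x ∉ M) (k : ℕ)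
    (hk : x ^ p ^ k ∈ M) : ∃ j, x ^ p ^ j ∉ M ∧ (x ^ p ^ j) ^ p ∈ M := by
  induction k with
  | zero => exact absurd (by simpa using hk) hx
  | succ k ih =>
    by_cases h : x ^ p ^ k ∈ M
    · exact ih h
    · exact ⟨k, h, by rw [← pow_mul, ← pow_succ]; exact hk⟩

theorem exists_elt {p : ℕ} [hp : Fact p.Prime] (R P A : Subgroup G) (hRn : R.Normal)
    (hRP : R ≤ P) (hP : IsPGroup p P) (hAP : A ≤ P) (hAn : P ≤ normalizer (A : Set G))
    (hA : IsCyclic A) (hnot : ¬ A ≤ R) :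
    ∃ a : G, a ∈ P ∧ a ∉ R ∧ a ^ p ∈ R ∧ ∀ r ∈ R, a * r * a⁻¹ * r⁻¹ ∈ zpowers (a ^ p) := by
  obtain ⟨⟨a0, ha0A⟩, hgen⟩ := hA.exists_generator
  have hgen' : ∀ x ∈ A, ∃ i : ℤ, a0 ^ i = x := by
    intro x hx
    obtain ⟨i, hi⟩ := Subgroup.mem_zpowers_iff.mp (hgen ⟨x, hx⟩)
    exact ⟨i, by simpa using congrArg Subtype.val hi⟩
  have ha0R : a0 ∉ R := by
    intro h
    apply hnot
    intro x hx
    obtain ⟨i, rfl⟩ := hgen' x hx
    exact R.zpow_mem h i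
  obtain ⟨k, hk⟩ := hP ⟨a0, hAP ha0A⟩
  have hk' : a0 ^ p ^ k = 1 := by simpa using congrArg Subtype.val hk
  obtain ⟨j, hj1, hj2⟩ := exists_last_pow' ha0R k (by rw [hk']; exact R.one_mem)
  refine ⟨a0 ^ p ^ j, P.pow_mem (hAP ha0A) _, hj1, hj2, ?_⟩
  intro r hr
  obtain ⟨a, ha⟩ : ∃ a, a = a0 ^ p ^ j := ⟨_, rfl⟩
  rw [← ha] at hj1 hj2 ⊢
  have hrN := hAn (hRP hr)
  have h1 : r * a0 * r⁻¹ ∈ A := (Subgroup.mem_normalizer_iff.mp hrN a0).mp ha0A
  obtain ⟨i, hi⟩ := hgen' _ h1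
  have h2 : r * a * r⁻¹ = a ^ i := by
    rw [ha, ← conj_pow, ← hi, ← zpow_natCast, ← zpow_natCast, ← zpow_mul, ← zpow_mul, mul_comm]
  have h3 : a * r * a⁻¹ * r⁻¹ = a ^ (1 - i) := by
    rw [zpow_sub, zpow_one, ← h2]; group
  have h4 : a ^ (1 - i) ∈ R := by
    rw [← h3]
    exact R.mul_mem (hRn.conj_mem r hr a) (R.inv_mem hr)
  rw [h3]
  by_cases hd : (p : ℤ) ∣ 1 - i
  · obtain ⟨t, ht⟩ := hd
    rw [ht, zpow_mul, zpow_natCast]
    exact Subgroup.zpow_mem_zpowers _ _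
  · exfalso
    have hcop : IsCoprime (p : ℤ) (1 - i) :=
      (Prime.coprime_iff_not_dvd (Nat.prime_iff_prime_int.mp hp.out)).mpr hd
    obtain ⟨u, v, huv⟩ := hcop
    apply hj1
    have : a = (a ^ p) ^ u * (a ^ (1 - i)) ^ v := by
      rw [← zpow_natCast a p, ← zpow_mul, ← zpow_mul, ← zpow_add, mul_comm (p : ℤ),
        mul_comm (1 - i), huv, zpow_one]
    rw [this]
    exact R.mul_mem (R.zpow_mem hj2 _) (R.zpow_mem h4 _)

theorem frat_data [Finite G] {p : ℕ} [Fact p.Prime] (hsol : IsPSolvable p G)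
    (hcore : pPrimeCore p G = ⊥) :
    ∃ F : Subgroup G, F.Normal ∧ F ≤ pCore p G ∧
      (∀ r ∈ pCore p G, ∀ s ∈ pCore p G, r * s * r⁻¹ * s⁻¹ ∈ F) ∧
      (∀ r ∈ pCore p G, r ^ p ∈ F) ∧
      (∀ N : Subgroup G, N.Normal → (∀ g ∈ N, ∀ r ∈ pCore p G, g * r * g⁻¹ * r⁻¹ ∈ F) →
        N ≤ pCore p G) := by
  obtain ⟨R, hR⟩ : ∃ R, R = pCore p G := ⟨_, rfl⟩
  have hRn : R.Normal := by rw [hR]; infer_instance
  have hRp : IsPGroup p R := by rw [hR]; exact Cfsg.Agent.Lib.Lead.pCore_isPGroup p G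
  have hC : Subgroup.centralizer (R : Set G) ≤ R := by
    rw [hR]; exact Cfsg.Agent.Lib.Helper76.centralizer_pCore_le hsol hcore
  rw [← hR]
  refine ⟨(frattini R).map R.subtype,
    Cfsg.Agent.Lib.Lead.normal_map_subtype_of_characteristic R (frattini R),
    Subgroup.map_subtype_le _, ?_, ?_, ?_⟩
  · intro r hr s hs
    refine ⟨⁅(⟨r, hr⟩ : R), (⟨s, hs⟩ : R)⁆, ?_, ?_⟩
    · apply Cfsg.Agent.Lib.Helper2.commutator_le_frattini hRp
      rw [_root_.commutator_def]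
      exact Subgroup.commutator_mem_commutator (Subgroup.mem_top _) (Subgroup.mem_top _)
    · simp [commutatorElement_def]
  · intro r hr
    exact ⟨(⟨r, hr⟩ : R) ^ p, Cfsg.Agent.Lib.Helper2.pow_p_mem_frattini hRp _, by simp⟩
  · intro N hNn hN
    rw [hR]
    apply Cfsg.Agent.Lib.Lead.le_pCore hNn
    rintro ⟨g, hg⟩
    have h1 : (MulAut.conjNormal g : MulAut R) ∈ Cfsg.Agent.Lib.Helper64.frattiniKer R := by
      intro r
      obtain ⟨f, hf, hfe⟩ := hN g hg r r.2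
      have : MulAut.conjNormal g r * r⁻¹ = f := by
        ext
        rw [Subgroup.coe_mul, MulAut.conjNormal_apply, Subgroup.coe_inv]
        exact hfe.symm
      rw [this]; exact hf
    obtain ⟨k, hk⟩ := Cfsg.Agent.Lib.Helper64.isPGroup_frattiniKer hRp ⟨_, h1⟩
    have hk' : (MulAut.conjNormal g : MulAut R) ^ p ^ k = 1 := by
      have := congrArg Subtype.val hk
      simpa using this
    rw [← map_pow] at hk'
    have h4 : g ^ p ^ k ∈ R := by
      apply hC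
      rw [Subgroup.mem_centralizer_iff]
      intro r hr
      have h5 := congrArg (fun e : MulAut R => ((e ⟨r, hr⟩ : R) : G)) hk'
      simp only [MulAut.conjNormal_apply, MulAut.one_apply] at h5
      exact (mul_inv_eq_iff_eq_mul.1 h5).symm
    obtain ⟨l, hl⟩ := hRp ⟨_, h4⟩
    have hl' : (g ^ p ^ k) ^ p ^ l = 1 := by simpa using congrArg Subtype.val hl
    refine ⟨k + l, ?_⟩
    ext
    simp only [Subgroup.coe_pow, Subgroup.coe_one]
    rw [pow_add, pow_mul, hl']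

end Cfsg.Agent.Lib.Helper2.CycNormal
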