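import Mathlib
import Cfsg.Agent.S0055
import Cfsg.Agent.Lib.Helper1.Hall
import Cfsg.Agent.Lib.Helper25.SZAmbient
import Cfsg.Agent.Lib.Helper64.MetaOmega

/-!
# The core lemma for S3788 (helper2; paper proof by helper46)
-/

set_option autoImplicit false

namespace Cfsg.Agent.Lib.Helper2.CycNormal

open Subgroup
open scoped commutatorElement

theorem comm_pow_orderOf_eq_one {X : Type*} [Group X] {x y : X}
    (hc : (x * y * x⁻¹ * y⁻¹) * y = y * (x * y * x⁻¹ * y⁻¹)) :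
    (x * y * x⁻¹ * y⁻¹) ^ orderOf y = 1 := by
  obtain ⟨c, hcdef⟩ : ∃ c, c = x * y * x⁻¹ * y⁻¹ := ⟨_, rfl⟩
  rw [← hcdef] at hc ⊢
  have h1 : c * y = x * y * x⁻¹ := by rw [hcdef]; group
  have h2 : (c * y) ^ orderOf y = c ^ orderOf y := by
    rw [(show Commute c y from hc).mul_pow, pow_orderOf_eq_one, mul_one]
  rw [← h2, h1, conj_pow, pow_orderOf_eq_one]; group

theorem core {X : Type*} [Group X] [Finite X] {p : ℕ} [hp : Fact p.Prime] (hp2 : p ≠ 2)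
    (V K : Subgroup X) [hVn : V.Normal] [hKn : K.Normal] (hVK : V ≤ K)
    (hab : ∀ x ∈ V, ∀ y ∈ V, x * y = y * x) (hexp : ∀ v ∈ V, v ^ p = 1)
    (hcop : (Nat.card V).Coprime (V.relIndex K)) (a : X) (haV : a ^ p ∈ V)
    (h : ∀ v ∈ V, a * v * a⁻¹ * v⁻¹ ∈ Subgroup.zpowers (a ^ p)) :
    ∀ k ∈ K, k * a * k⁻¹ * a⁻¹ ∈ Subgroup.centralizer (V : Set X) := by
  obtain ⟨K0, hK0K, hK0card, hK0sup⟩ := Cfsg.Agent.Lib.Helper1.sz_exists_rel V K hVK
    (by rw [Subgroup.normalizer_eq_top]; exact le_top) hcop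
  rw [← hK0card] at hcop
  have hVK0 : ∀ x ∈ V, x ∈ K0 → x = 1 := by
    intro x hxV hxK
    have h1 := Subgroup.orderOf_dvd_natCard _ hxV
    have h2 := Subgroup.orderOf_dvd_natCard _ hxK
    exact orderOf_eq_one_iff.mp (Nat.eq_one_of_dvd_coprimes hcop h1 h2)
  have hdec : ∀ k ∈ K, ∃ y ∈ V, ∃ k0 ∈ K0, y * k0 = k := by
    intro k hk
    rw [← hK0sup, sup_comm] at hk
    have : k ∈ ((V ⊔ K0 : Subgroup X) : Set X) := hk
    rw [Subgroup.normal_mul] at this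
    exact Set.mem_mul.mp this
  obtain ⟨z, hz⟩ : ∃ z, z = a ^ p := ⟨_, rfl⟩
  rw [← hz] at haV h
  have hza : Commute z a := by rw [hz]; exact (Commute.refl a).pow_left p
  -- (2) a conjugate of `a` by an element of `V` normalizes `K0`
  have hVsol : Group.IsSolvable V := Group.isSolvable_of_comm (fun u v => Subtype.ext (hab u u.2 v v.2))
  obtain ⟨x, hxV, hxB⟩ := Cfsg.Agent.Lib.Helper25.sz_conj_ambient V K0
    (K0.map (MulAut.conj a).toMonoidHom)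
    (by rw [Subgroup.normalizer_eq_top]; exact le_top)
    (by
      rw [sup_comm, hK0sup]
      rintro _ ⟨k, hk, rfl⟩
      exact hKn.conj_mem k (hK0K hk) a)
    hcop (Subgroup.card_map_of_injective (MulAut.conj a).injective) (Or.inl hVsol)
  obtain ⟨b, hb⟩ : ∃ b, b = x⁻¹ * a := ⟨_, rfl⟩
  have hbK0 : ∀ k ∈ K0, b * k * b⁻¹ ∈ K0 := by
    intro k hk
    have h1 : a * k * a⁻¹ ∈ K0.map (MulAut.conj a).toMonoidHom := ⟨k, hk, rfl⟩
    rw [hxB] at h1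
    obtain ⟨k', hk', hk'e⟩ := h1
    have h2 : x * k' * x⁻¹ = a * k * a⁻¹ := hk'e
    have h3 : b * k * b⁻¹ = k' := by
      calc b * k * b⁻¹ = x⁻¹ * (a * k * a⁻¹) * x := by rw [hb]; group
        _ = k' := by rw [← h2]; group
    rw [h3]; exact hk'
  -- (3) `b ^ p = z`
  have hbp : b ^ p = z := by
    obtain ⟨c, hc⟩ : ∃ c, c = a * x⁻¹ * a⁻¹ * x⁻¹⁻¹ := ⟨_, rfl⟩
    have hcz : c ∈ zpowers z := by rw [hc]; exact h _ (V.inv_mem hxV)
    have hcV : c ∈ V := (Subgroup.zpowers_le.mpr haV) hcz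
    have hca : Commute c a := by
      obtain ⟨i, hi⟩ := Subgroup.mem_zpowers_iff.mp hcz
      rw [← hi]; exact hza.zpow_left i
    have hcx : Commute c x⁻¹ := hab c hcV _ (V.inv_mem hxV)
    have h1 := Cfsg.Agent.Lib.Helper64.mul_pow_of_comm_central (g := x⁻¹) (h := a) (c := c)
      (by rw [hc]; group) hcx hca p
    have h2 : p ∣ p.choose 2 := hp.out.dvd_choose_self (by norm_num)
      (lt_of_le_of_ne hp.out.two_le (Ne.symm hp2))
    obtain ⟨t, ht⟩ := h2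
    rw [hb, h1, ht, pow_mul, hexp c hcV, one_pow, one_mul, hexp _ (V.inv_mem hxV), one_mul, hz]
  -- (4) `z` centralizes `K0`
  have hbn : ∀ n : ℕ, ∀ k ∈ K0, b ^ n * k * (b ^ n)⁻¹ ∈ K0 := by
    intro n
    induction n with
    | zero => intro k hk; simpa using hk
    | succ n ih =>
      intro k hk
      have := hbK0 _ (ih k hk)
      have h2 : b ^ (n + 1) * k * (b ^ (n + 1))⁻¹ = b * (b ^ n * k * (b ^ n)⁻¹) * b⁻¹ := by
        rw [pow_succ']; group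
      rw [h2]; exact this
  have hzK0 : ∀ k ∈ K0, z * k = k * z := by
    intro k hk
    have h1 : z * k * z⁻¹ * k⁻¹ ∈ K0 := by
      have := hbn p k hk
      rw [hbp] at this
      exact K0.mul_mem this (K0.inv_mem hk)
    have h2 : z * k * z⁻¹ * k⁻¹ ∈ V := by
      have h3 : z * k * z⁻¹ * k⁻¹ = z * (k * z⁻¹ * k⁻¹) := by group
      rw [h3]
      exact V.mul_mem haV (hVn.conj_mem _ (V.inv_mem haV) k)
    have h3 := hVK0 _ h2 h1
    exact mul_inv_eq_iff_eq_mul.mp (mul_inv_eq_one.mp h3)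
  -- (5) `W = [V, K]`
  have hWn : (⁅V, K⁆ : Subgroup X).Normal := Subgroup.commutator_normal V K
  have hWV : ⁅V, K⁆ ≤ V := Subgroup.commutator_le_left V K
  have hVc : IsMulCommutative V := ⟨⟨fun u v => Subtype.ext (hab u u.2 v v.2)⟩⟩
  have hWK0 : ⁅V, K⁆ ≤ ⁅V, K0⁆ := by
    rw [Subgroup.commutator_le]
    intro v hv k hk
    obtain ⟨y, hy, k0, hk0, rfl⟩ := hdec k hk
    have h1 : ⁅v, k0⁆ ∈ ⁅V, K0⁆ := Subgroup.commutator_mem_commutator hv hk0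
    have h2 : ⁅v, k0⁆ ∈ V := hWV (Subgroup.commutator_mem_commutator hv (hK0K hk0))
    have h3 : ⁅v, y * k0⁆ = ⁅v, k0⁆ := by
      have h4 : v * y = y * v := hab v hv y hy
      have h5 : y * ⁅v, k0⁆ = ⁅v, k0⁆ * y := hab y hy _ h2
      calc ⁅v, y * k0⁆ = (v * y) * k0 * v⁻¹ * k0⁻¹ * y⁻¹ := by
            rw [commutatorElement_def]; group
        _ = (y * v) * k0 * v⁻¹ * k0⁻¹ * y⁻¹ := by rw [h4]
        _ = (y * ⁅v, k0⁆) * y⁻¹ := by rw [commutatorElement_def]; group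
        _ = ⁅v, k0⁆ := by rw [h5]; group
    rw [h3]; exact h1
  have hW1 : ∀ w ∈ ⁅V, K⁆, (∀ k ∈ K0, k * w = w * k) → w = 1 := by
    intro w hw hwk
    have h1 := (Cfsg.Agent.S0055.result K0 V
      (by rw [Subgroup.normalizer_eq_top]; exact le_top) hcop.symm).1
    have h2 : w ∈ (V ⊓ Subgroup.centralizer (K0 : Set X)) ⊓ ⁅V, K0⁆ :=
      ⟨⟨hWV hw, Subgroup.mem_centralizer_iff.mpr hwk⟩, hWK0 hw⟩
    rw [h1] at h2
    exact Subgroup.mem_bot.mp h2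
  have haW : ∀ w ∈ ⁅V, K⁆, a * w = w * a := by
    intro w hw
    have h1 : a * w * a⁻¹ * w⁻¹ ∈ ⁅V, K⁆ :=
      Subgroup.mul_mem _ (hWn.conj_mem w hw a) (Subgroup.inv_mem _ hw)
    have h2 : a * w * a⁻¹ * w⁻¹ = 1 := by
      apply hW1 _ h1
      intro k hk
      obtain ⟨i, hi⟩ := Subgroup.mem_zpowers_iff.mp (h w (hWV hw))
      rw [← hi]
      exact ((show Commute z k from hzK0 k hk).zpow_left i).symm.eq
    exact mul_inv_eq_iff_eq_mul.mp (mul_inv_eq_one.mp h2)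
  -- (6), (7)
  intro k hk
  obtain ⟨g, hg⟩ : ∃ g, g = k * a * k⁻¹ * a⁻¹ := ⟨_, rfl⟩
  rw [← hg]
  have hgK : g ∈ K := by
    have h3 : g = k * (a * k⁻¹ * a⁻¹) := by rw [hg]; group
    rw [h3]
    exact K.mul_mem hk (hKn.conj_mem _ (K.inv_mem hk) a)
  have hgW : ∀ w ∈ ⁅V, K⁆, g * w = w * g := by
    intro w hw
    have h1 : a⁻¹ * w = w * a⁻¹ := ((show Commute a w from haW w hw).inv_left).eq
    have h2 : a * (k⁻¹ * w * k⁻¹⁻¹) = (k⁻¹ * w * k⁻¹⁻¹) * a := haW _ (hWn.conj_mem w hw k⁻¹)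
    calc g * w = k * a * k⁻¹ * (a⁻¹ * w) := by rw [hg]; group
      _ = k * a * k⁻¹ * (w * a⁻¹) := by rw [h1]
      _ = k * (a * (k⁻¹ * w * k⁻¹⁻¹)) * k⁻¹ * a⁻¹ := by group
      _ = k * ((k⁻¹ * w * k⁻¹⁻¹) * a) * k⁻¹ * a⁻¹ := by rw [h2]
      _ = w * g := by rw [hg]; group
  obtain ⟨y, hy, k0, hk0, hyk⟩ := hdec g hgK
  have hk0W : ∀ w ∈ ⁅V, K⁆, k0 * w = w * k0 := by
    intro w hw
    have h1 : y⁻¹ * w = w * y⁻¹ := hab _ (V.inv_mem hy) w (hWV hw)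
    have h2 : k0 = y⁻¹ * g := by rw [← hyk]; group
    rw [h2, mul_assoc, hgW w hw, ← mul_assoc, h1, mul_assoc]
  have hk0V : ∀ v ∈ V, v * k0 = k0 * v := by
    intro v hv
    have hcW : v * k0 * v⁻¹ * k0⁻¹ ∈ ⁅V, K⁆ := by
      have := Subgroup.commutator_mem_commutator hv (hK0K hk0)
      rwa [commutatorElement_def] at this
    have h1 := comm_pow_orderOf_eq_one (x := v) (y := k0) (hk0W _ hcW).symm
    have h2 : orderOf (v * k0 * v⁻¹ * k0⁻¹) ∣ Nat.card K0 :=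
      (orderOf_dvd_of_pow_eq_one h1).trans (Subgroup.orderOf_dvd_natCard _ hk0)
    have h3 : orderOf (v * k0 * v⁻¹ * k0⁻¹) ∣ Nat.card V :=
      Subgroup.orderOf_dvd_natCard _ (hWV hcW)
    have h4 : v * k0 * v⁻¹ * k0⁻¹ = 1 :=
      orderOf_eq_one_iff.mp (Nat.eq_one_of_dvd_coprimes hcop h3 h2)
    exact mul_inv_eq_iff_eq_mul.mp (mul_inv_eq_one.mp h4)
  rw [Subgroup.mem_centralizer_iff]
  intro v hv
  rw [← hyk, ← mul_assoc, hab v hv y hy, mul_assoc, hk0V v hv, mul_assoc]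

end Cfsg.Agent.Lib.Helper2.CycNormal
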