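import Mathlib
import Cfsg.Agent.Lib.Helper2.CycNormal
import Cfsg.Agent.Lib.Helper2.CycNormalCore
import Cfsg.Agent.Lib.Helper48.PSolvDual
import Cfsg.Agent.Lib.Helper46.S4Transv
import Cfsg.Agent.Lib.Helper33.Sections

/-!
# Cyclic normal subgroups of a Sylow subgroup (helper2, for S3788): the case `O_{p'}(G) = 1`
-/

set_option autoImplicit false

namespace Cfsg.Agent.Lib.Helper2.CycNormal

open Cfsg Subgroup

variable {G : Type*} [Group G]

theorem comm_of_comm_eq_one {x y : G} (h : x * y * x⁻¹ * y⁻¹ = 1) : x * y = y * x := by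
  have := mul_inv_eq_one.mp h
  exact mul_inv_eq_iff_eq_mul.mp this

theorem relIndex_comap_mk' (R : Subgroup G) [R.Normal] (H : Subgroup (G ⧸ R)) :
    R.relIndex (H.comap (QuotientGroup.mk' R)) = Nat.card H := by
  have h2 : (⊥ : Subgroup (G ⧸ R)).comap (QuotientGroup.mk' R) = R := by
    rw [MonoidHom.comap_bot, QuotientGroup.ker_mk']
  calc R.relIndex (H.comap (QuotientGroup.mk' R))
      = ((⊥ : Subgroup (G ⧸ R)).comap (QuotientGroup.mk' R)).relIndex
          (H.comap (QuotientGroup.mk' R)) := by rw [h2]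
    _ = (⊥ : Subgroup (G ⧸ R)).relIndex ((H.comap (QuotientGroup.mk' R)).map
          (QuotientGroup.mk' R)) := Subgroup.relIndex_comap _ _ _
    _ = Nat.card H := by
        rw [Subgroup.map_comap_eq_self_of_surjective (QuotientGroup.mk'_surjective R),
          Subgroup.relIndex_bot_left]

theorem reduced [Finite G] {p : ℕ} [hp : Fact p.Prime] (hG : IsPSolvable p G)
    (hcore : pPrimeCore p G = ⊥) (P : Sylow p G) (A : Subgroup G) (hAP : A ≤ (P : Subgroup G))
    (hAn : (P : Subgroup G) ≤ normalizer (A : Set G)) (hA : IsCyclic A)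
    (h : p ≠ 2 ∨ ¬ Involves (Equiv.Perm (Fin 4)) G) : A ≤ pCore p G := by
  by_contra hnot
  obtain ⟨F, hFn, hFR, hFc, hFp, hFK⟩ := frat_data hG hcore
  obtain ⟨R, hR⟩ : ∃ R, R = pCore p G := ⟨_, rfl⟩
  rw [← hR] at hnot hFR hFc hFp hFK
  have hRn : R.Normal := by rw [hR]; infer_instance
  have hRp : IsPGroup p R := by rw [hR]; exact Cfsg.Agent.Lib.Lead.pCore_isPGroup p G
  have hRP : R ≤ P := by rw [hR]; exact Cfsg.Agent.Lib.Lead.pCore_le_sylow P
  obtain ⟨a, haP, haR, hapR, hac⟩ := exists_elt R P A hRn hRP P.2 hAP hAn hA hnot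
  obtain ⟨π, hπ⟩ : ∃ π : G →* G ⧸ F, π = QuotientGroup.mk' F := ⟨_, rfl⟩
  have hπs : Function.Surjective π := by rw [hπ]; exact QuotientGroup.mk'_surjective F
  have hπ1 : ∀ g, π g = 1 ↔ g ∈ F := by intro g; rw [hπ]; exact QuotientGroup.eq_one_iff g
  have hπker : π.ker = F := by rw [hπ]; exact QuotientGroup.ker_mk' F
  obtain ⟨V, hV⟩ : ∃ V, V = R.map π := ⟨_, rfl⟩
  have hVn : V.Normal := by rw [hV]; exact hRn.map π hπs
  have hab : ∀ x ∈ V, ∀ y ∈ V, x * y = y * x := by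
    rw [hV]
    rintro _ ⟨r, hr, rfl⟩ _ ⟨s, hs, rfl⟩
    apply comm_of_comm_eq_one
    rw [← map_inv, ← map_inv, ← map_mul, ← map_mul, ← map_mul, hπ1]
    exact hFc r hr s hs
  have hexp : ∀ v ∈ V, v ^ p = 1 := by
    rw [hV]
    rintro _ ⟨r, hr, rfl⟩
    rw [← map_pow, hπ1]
    exact hFp r hr
  have hVp : IsPGroup p V := by rw [hV]; exact hRp.map π
  have haV : π a ^ p ∈ V := by
    rw [hV, ← map_pow]; exact Subgroup.mem_map_of_mem π hapR
  have hacV : ∀ v ∈ V, π a * v * (π a)⁻¹ * v⁻¹ ∈ zpowers (π a ^ p) := by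
    rw [hV]
    rintro _ ⟨r, hr, rfl⟩
    rw [← map_inv, ← map_inv, ← map_mul, ← map_mul, ← map_mul, ← map_pow, ← MonoidHom.map_zpowers]
    exact Subgroup.mem_map_of_mem π (hac r hr)
  -- the kernel of the action on `V`
  have hN : (centralizer (V : Set (G ⧸ F))).comap π ≤ R := by
    apply hFK _ (Subgroup.Normal.comap inferInstance π)
    intro g hg r hr
    rw [Subgroup.mem_comap, Subgroup.mem_centralizer_iff] at hg
    have h1 := hg (π r) (by rw [hV]; exact Subgroup.mem_map_of_mem π hr)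
    rw [← hπ1, map_mul, map_mul, map_mul, map_inv, map_inv, ← h1]
    group
  by_cases hp2 : p = 2
  · subst hp2
    have hfree : ¬ Involves (Equiv.Perm (Fin 4)) (G ⧸ F) := by
      rcases h with h | h
      · exact absurd rfl h
      · exact fun hh => h (Cfsg.Agent.Lib.Helper33.involves_quotient F hh)
    obtain ⟨a', ha'⟩ : ∃ a', a' = π a := ⟨_, rfl⟩
    rw [← ha'] at haV hacV
    have hz2 : (a' ^ 2) ^ 2 = 1 := hexp _ haV
    have hcases : ∀ v ∈ V, a' * v * a'⁻¹ * v⁻¹ = 1 ∨ a' * v * a'⁻¹ * v⁻¹ = a' ^ 2 := by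
      intro v hv
      obtain ⟨i, hi⟩ := Subgroup.mem_zpowers_iff.mp (hacV v hv)
      rw [← hi]
      rcases Int.even_or_odd' i with ⟨t, rfl | rfl⟩
      · left
        rw [zpow_mul, zpow_ofNat, hz2, one_zpow]
      · right
        rw [zpow_add, zpow_mul, zpow_ofNat, hz2, one_zpow, one_mul, zpow_one]
    have hmulc : ∀ v ∈ V, ∀ w ∈ V, a' * (v * w) * a'⁻¹ * (v * w)⁻¹
        = (a' * v * a'⁻¹ * v⁻¹) * (a' * w * a'⁻¹ * w⁻¹) := by
      intro v hv w hw
      have h1 : a' * w * a'⁻¹ ∈ V := hVn.conj_mem w hw a'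
      have h2 : v⁻¹ * (a' * w * a'⁻¹ * w⁻¹) = (a' * w * a'⁻¹ * w⁻¹) * v⁻¹ :=
        hab _ (V.inv_mem hv) _ (V.mul_mem h1 (V.inv_mem hw))
      calc a' * (v * w) * a'⁻¹ * (v * w)⁻¹
          = a' * v * a'⁻¹ * ((a' * w * a'⁻¹ * w⁻¹) * v⁻¹) := by group
        _ = a' * v * a'⁻¹ * (v⁻¹ * (a' * w * a'⁻¹ * w⁻¹)) := by rw [h2]
        _ = _ := by group
    by_cases hcen : ∀ v ∈ V, a' * v * a'⁻¹ * v⁻¹ = 1
    · apply haR
      apply hN
      rw [Subgroup.mem_comap, Subgroup.mem_centralizer_iff, ← ha']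
      intro v hv
      exact (comm_of_comm_eq_one (hcen v hv)).symm
    · push Not at hcen
      obtain ⟨v0, hv0, hv0ne⟩ := hcen
      have hv0z : a' * v0 * a'⁻¹ * v0⁻¹ = a' ^ 2 := (hcases v0 hv0).resolve_left hv0ne
      have hzne : a' ^ 2 ≠ 1 := by rw [← hv0z]; exact hv0ne
      have hmemC : ∀ x, x ∈ V ⊓ centralizer {a'} ↔ x ∈ V ∧ a' * x * a'⁻¹ * x⁻¹ = 1 := by
        intro x
        rw [Subgroup.mem_inf, Subgroup.mem_centralizer_singleton_iff]
        constructor
        · rintro ⟨h1, h2⟩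
          refine ⟨h1, ?_⟩
          rw [← h2]; group
        · rintro ⟨h1, h2⟩
          exact ⟨h1, (comm_of_comm_eq_one h2).symm⟩
      have hrel : (V ⊓ centralizer {a'}).relIndex V = 2 := by
        rw [Subgroup.relIndex_eq_two_iff]
        refine ⟨v0, hv0, fun b hb => ?_⟩
        rw [hmemC, hmemC, hmulc b hb v0 hv0, hv0z]
        rcases hcases b hb with h1 | h1
        · rw [h1, one_mul]
          exact Or.inr ⟨⟨hb, rfl⟩, fun h => hzne h.2⟩
        · rw [h1]
          exact Or.inl ⟨⟨V.mul_mem hb hv0, by rw [← pow_two]; exact hz2⟩, fun h => hzne h.2⟩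
      have hT := Cfsg.Agent.Lib.Helper46.S4Transv.transvection_mem_pCore V hab hVp a' hrel hfree
      obtain ⟨φ, hφ⟩ : ∃ φ : G →* (G ⧸ F) ⧸ centralizer (V : Set (G ⧸ F)),
        φ = (QuotientGroup.mk' _).comp π := ⟨_, rfl⟩
      have hker : φ.ker = (centralizer (V : Set (G ⧸ F))).comap π := by
        rw [hφ, ← MonoidHom.comap_ker, QuotientGroup.ker_mk']
      have hM2 : IsPGroup 2 ((pCore 2 ((G ⧸ F) ⧸ centralizer (V : Set (G ⧸ F)))).comap φ) :=
        IsPGroup.comap_of_ker_isPGroup (Cfsg.Agent.Lib.Lead.pCore_isPGroup 2 _) φ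
          (by rw [hker]; exact hRp.to_le hN)
      have hMle : (pCore 2 ((G ⧸ F) ⧸ centralizer (V : Set (G ⧸ F)))).comap φ ≤ R := by
        rw [hR]
        exact Cfsg.Agent.Lib.Lead.le_pCore (Subgroup.Normal.comap inferInstance φ) hM2
      exact haR (hMle (by rw [Subgroup.mem_comap, hφ, MonoidHom.comp_apply, ← ha']; exact hT))
  · -- `p` odd
    obtain ⟨Kt, hKt⟩ : ∃ Kt, Kt = (pPrimeCore p (G ⧸ R)).comap (QuotientGroup.mk' R) := ⟨_, rfl⟩
    have hKtn : Kt.Normal := by rw [hKt]; exact Subgroup.Normal.comap inferInstance _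
    have hRKt : R ≤ Kt := by
      rw [hKt]; intro r hr
      rw [Subgroup.mem_comap, QuotientGroup.mk'_apply, (QuotientGroup.eq_one_iff r).mpr hr]
      exact Subgroup.one_mem _
    have hKn : (Kt.map π).Normal := hKtn.map π hπs
    have hVK : V ≤ Kt.map π := by rw [hV]; exact Subgroup.map_mono hRKt
    have hcop : (Nat.card V).Coprime (V.relIndex (Kt.map π)) := by
      have h1 : V.relIndex (Kt.map π) = Nat.card (pPrimeCore p (G ⧸ R)) := by
        rw [← Subgroup.relIndex_comap, hV, Subgroup.comap_map_eq_self (by rw [hπker]; exact hFR),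
          hKt, relIndex_comap_mk']
      rw [h1]
      obtain ⟨n, hn⟩ := IsPGroup.iff_card.mp hVp
      rw [hn]
      exact Nat.Coprime.pow_left n (Cfsg.Agent.Lib.Lead.card_pPrimeCore_coprime p).symm
    have hcoreL := core hp2 V (Kt.map π) hVK hab hexp hcop (π a) haV hacV
    have hkR : ∀ k ∈ Kt, k * a * k⁻¹ * a⁻¹ ∈ R := by
      intro k hk
      apply hN
      rw [Subgroup.mem_comap, map_mul, map_mul, map_mul, map_inv, map_inv]
      exact hcoreL (π k) (Subgroup.mem_map_of_mem π hk)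
    have hacen : QuotientGroup.mk' R a ∈ centralizer (pPrimeCore p (G ⧸ R) : Set (G ⧸ R)) := by
      rw [Subgroup.mem_centralizer_iff]
      intro y hy
      obtain ⟨k, rfl⟩ := QuotientGroup.mk'_surjective R y
      apply comm_of_comm_eq_one
      rw [← map_inv, ← map_inv, ← map_mul, ← map_mul, ← map_mul]
      exact (QuotientGroup.eq_one_iff _).mpr (hkR k (by rw [hKt]; exact hy))
    have hcoreR : pCore p (G ⧸ R) = ⊥ := by
      subst hR
      exact Cfsg.Agent.Lib.Lead.pCore_quotient_pCore p G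
    have hmem := Cfsg.Agent.Lib.Helper48.centralizer_pPrimeCore_le
      (Cfsg.Agent.Lib.Helper76.isPSolvable_quotient R hG) hcoreR hacen
    obtain ⟨k, hk⟩ := P.2 ⟨a, haP⟩
    have hk' : a ^ p ^ k = 1 := by simpa using congrArg Subtype.val hk
    have h1 : (QuotientGroup.mk' R a) ^ p ^ k = 1 := by rw [← map_pow, hk', map_one]
    have h2 : orderOf (QuotientGroup.mk' R a) ∣ p ^ k := orderOf_dvd_of_pow_eq_one h1
    have h3 : orderOf (QuotientGroup.mk' R a) ∣ Nat.card (pPrimeCore p (G ⧸ R)) :=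
      Subgroup.orderOf_dvd_natCard _ hmem
    have h4 : QuotientGroup.mk' R a = 1 := by
      apply orderOf_eq_one_iff.mp
      have hc : (Nat.card (pPrimeCore p (G ⧸ R))).Coprime (p ^ k) :=
        Nat.Coprime.pow_right k (Cfsg.Agent.Lib.Lead.card_pPrimeCore_coprime p)
      exact Nat.eq_one_of_dvd_coprimes hc h3 h2
    exact haR ((QuotientGroup.eq_one_iff a).mp h4)

end Cfsg.Agent.Lib.Helper2.CycNormal
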