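import Mathlib
import Cfsg.Agent.Lib.Helper33.TransferOrbit
import Cfsg.Agent.Lib.Helper2.TransferBasic

set_option autoImplicit false

namespace Cfsg.Agent.Lib.Helper2

open Subgroup Cfsg.Agent.Lib.Helper33

/-- evaluating a homomorphism to a commutative group on iterated commutators `a⁻¹ * c a`. -/
theorem iterate_pre_apply' {U B : Type*} [Group U] [CommGroup B] (c : U →* U) (m : ℕ) :
    ∀ (l : U →* B) (a : U), ((fun l : U →* B => MonoidHom.compHom' c l * l⁻¹)^[m] l) a =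
      l ((fun a : U => a⁻¹ * c a)^[m] a) := by
  induction m with
  | zero => intro l a; rfl
  | succ m ih =>
    intro l a
    rw [Function.iterate_succ_apply, ih, Function.iterate_succ_apply']
    set b := (fun a : U => a⁻¹ * c a)^[m] a
    change l (c b) * (l b)⁻¹ = l (b⁻¹ * c b)
    rw [map_mul, map_inv, mul_comm]

/-- **Local trace lemma** (ambient form).  `T ⊴ M`, `T ≤ S ≤ M`, `S` a `p`-subgroup of index prime to
`p` in `M`, `l : S → A` a homomorphism to a group of exponent `p`.  If a normal subset `𝒴` of `S`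
acts on `T` with the `(p-1)`-Engel condition and `l` is invariant under those `g ∈ M` that
conjugate `𝒴` into `S`, then `l` restricted to `T` is `M`-invariant. -/
theorem local_trace {G : Type*} [Group G] [Finite G] {p : ℕ} [Fact p.Prime] (M S T : Subgroup G)
    (hTS : T ≤ S) (hSM : S ≤ M) (hMT : M ≤ normalizer (T : Set G)) (hS : IsPGroup p S)
    (hidx : ¬ p ∣ S.relIndex M) {A : Type*} [CommGroup A] (hexp : ∀ a : A, a ^ p = 1)
    (l : S →* A) (𝒴 : Set G) (h𝒴 : 𝒴 ⊆ S) (hconj : ∀ s ∈ S, ∀ y ∈ 𝒴, s * y * s⁻¹ ∈ 𝒴)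
    (hengel : ∀ y ∈ 𝒴, ∀ a ∈ T, (fun u : G => u⁻¹ * y⁻¹ * u * y)^[p - 1] a = 1)
    (hf : ∀ g ∈ M, (∀ y ∈ 𝒴, g⁻¹ * y * g ∈ S) → ∀ (a : G) (ha : a ∈ S) (ha' : g⁻¹ * a * g ∈ S),
      a ∈ T → l ⟨g⁻¹ * a * g, ha'⟩ = l ⟨a, ha⟩) :
    ∀ g ∈ M, ∀ (a : G) (ha : a ∈ S) (ha' : g⁻¹ * a * g ∈ S), a ∈ T →
      l ⟨g⁻¹ * a * g, ha'⟩ = l ⟨a, ha⟩ := by
  have hp : p.Prime := Fact.out
  set S' : Subgroup M := S.subgroupOf M with hS'
  set U' : Subgroup M := T.subgroupOf M with hU'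
  haveI hUn : U'.Normal := (Subgroup.normal_subgroupOf_iff_le_normalizer (hTS.trans hSM)).mpr hMT
  have hUS : U' ≤ S' := fun x hx => hTS hx
  let ϕ : S' →* A := l.comp (Subgroup.subgroupOfEquivOfLe hSM).toMonoidHom
  have hϕ : ∀ (x : M) (hx : x ∈ S'), ϕ ⟨x, hx⟩ = l ⟨(x : G), hx⟩ := fun x hx => rfl
  have hSp : IsPGroup p S' := hS.comap_subtype
  let 𝒴' : Set M := {y | (y : G) ∈ 𝒴}
  obtain ⟨m, hm, hmt⟩ := transfer_eq_pow_of_trace (U := U') hSp ϕ hUS 𝒴'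
    (fun y hy => h𝒴 hy) (fun s hs y hy => hconj s hs y hy)
    (fun g a => by rw [map_pow, hexp])
    (fun y hy g a => by
      rw [← iterate_pre_apply, iterate_pre_apply']
      have key : ∀ (k : ℕ) (b : U'), (((fun a : U' => a⁻¹ *
          (MulAut.conjNormal y⁻¹ : MulAut U').toMonoidHom a)^[k] b : U') : G) =
          (fun u : G => u⁻¹ * (y : G)⁻¹ * u * (y : G))^[k] ((b : M) : G) := by
        intro k
        induction k with
        | zero => intro b; rfl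
        | succ k ih =>
          intro b
          rw [Function.iterate_succ_apply', Function.iterate_succ_apply', ← ih]
          set d := (fun a : U' => a⁻¹ * (MulAut.conjNormal y⁻¹ : MulAut U').toMonoidHom a)^[k] b
          change ((d : M) : G)⁻¹ * ((y : G)⁻¹ * ((d : M) : G) * (y : G)⁻¹⁻¹) = _
          rw [inv_inv]; group
      have h1 : (fun a : U' => a⁻¹ * (MulAut.conjNormal y⁻¹ : MulAut U').toMonoidHom a)^[p - 1] a = 1 := by
        apply Subtype.ext; apply Subtype.ext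
        rw [key]
        exact hengel y hy _ a.2
      rw [h1, map_one])
    (fun g hg => by
      ext a
      rw [lam_apply, lam_one, hϕ, hϕ]
      exact hf g g.2 (fun y hy => hg ⟨y, hSM (h𝒴 hy)⟩ hy) a (hTS a.2) _ a.2)
  have hcop : Nat.Coprime m p := by
    rw [Nat.coprime_comm, Nat.Prime.coprime_iff_not_dvd hp]
    intro hd
    apply hidx
    have : S'.index ≡ 0 [MOD p] := hm.symm.trans ((Nat.modEq_zero_iff_dvd).mpr hd)
    exact (Nat.modEq_zero_iff_dvd).mp this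
  intro g hg a ha ha' haT
  have haT' : g⁻¹ * a * g ∈ T := (mem_normalizer_iff''.mp (hMT hg) a).mp haT
  have e1 := hmt ⟨⟨a, hSM ha⟩, haT⟩
  have e2 := hmt ⟨⟨g⁻¹ * a * g, hSM ha'⟩, haT'⟩
  have e3 : MonoidHom.transfer ϕ (⟨g⁻¹ * a * g, hSM ha'⟩ : M) = MonoidHom.transfer ϕ (⟨a, hSM ha⟩ : M) := by
    have : (⟨g⁻¹ * a * g, hSM ha'⟩ : M) = (⟨g, hg⟩ : M)⁻¹ * ⟨a, hSM ha⟩ * ⟨g, hg⟩ := rfl
    rw [this, map_mul, map_mul, map_inv, mul_comm, mul_inv_cancel_left]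
  change MonoidHom.transfer ϕ (⟨a, hSM ha⟩ : M) = _ at e1
  change MonoidHom.transfer ϕ (⟨g⁻¹ * a * g, hSM ha'⟩ : M) = _ at e2
  rw [e3, e1] at e2
  rw [hϕ, hϕ] at e2
  have e4 : (l ⟨g⁻¹ * a * g, ha'⟩ * (l ⟨a, ha⟩)⁻¹) ^ m = 1 := by
    rw [mul_pow, inv_pow]
    change l ⟨a, ha⟩ ^ m = l ⟨g⁻¹ * a * g, ha'⟩ ^ m at e2
    rw [e2, mul_inv_cancel]
  have e5 := eq_one_of_pow_eq_one_of_coprime e4 (hexp _) hcop
  exact mul_inv_eq_one.mp e5

end Cfsg.Agent.Lib.Helper2
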