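import Mathlib
import Cfsg.Agent.Lib.Helper2.Tate

set_option autoImplicit false

universe u

namespace Cfsg.Agent.Lib.Helper2

open Subgroup
open scoped IsMulCommutative commutatorElement

/-- The subgroup generated by the `p`-th powers of the elements of `L`. -/
def powSub {Y : Type*} [Group Y] (p : ℕ) (L : Subgroup Y) : Subgroup Y :=
  Subgroup.closure ((fun x => x ^ p) '' (L : Set Y))

instance powSub_normal {Y : Type*} [Group Y] (p : ℕ) (L : Subgroup Y) [hL : L.Normal] :
    (powSub p L).Normal := by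
  constructor
  intro n hn g
  unfold powSub at hn ⊢
  induction hn using Subgroup.closure_induction with
  | mem z hz =>
    obtain ⟨x, hx, rfl⟩ := hz
    apply Subgroup.subset_closure
    exact ⟨g * x * g⁻¹, hL.conj_mem x hx g, by simp [conj_pow]⟩
  | one => simp
  | mul a b _ _ iha ihb =>
    have : g * (a * b) * g⁻¹ = (g * a * g⁻¹) * (g * b * g⁻¹) := by group
    rw [this]; exact Subgroup.mul_mem _ iha ihb
  | inv a _ ih =>
    have : g * a⁻¹ * g⁻¹ = (g * a * g⁻¹)⁻¹ := by group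
    rw [this]; exact Subgroup.inv_mem _ ih

theorem powSub_le {Y : Type*} [Group Y] (p : ℕ) (L : Subgroup Y) : powSub p L ≤ L := by
  unfold powSub
  rw [Subgroup.closure_le]
  rintro _ ⟨x, hx, rfl⟩
  exact L.pow_mem hx p

theorem pow_mem_powSub {Y : Type*} [Group Y] (p : ℕ) (L : Subgroup Y) {x : Y} (hx : x ∈ L) :
    x ^ p ∈ powSub p L := Subgroup.subset_closure ⟨x, hx, rfl⟩

theorem map_powSub {Y Z : Type*} [Group Y] [Group Z] (p : ℕ) (L : Subgroup Y) (f : Y →* Z) :
    (powSub p L).map f = powSub p (L.map f) := by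
  unfold powSub
  rw [MonoidHom.map_closure]
  congr 1
  ext z
  constructor
  · rintro ⟨_, ⟨x, hx, rfl⟩, rfl⟩
    exact ⟨f x, Subgroup.mem_map_of_mem f hx, (map_pow f x p).symm⟩
  · rintro ⟨_, ⟨x, hx, rfl⟩, rfl⟩
    exact ⟨x ^ p, ⟨x, hx, rfl⟩, map_pow f x p⟩

/-- A normal subgroup `N` of a finite `p`-group with `N = [N, Y] N^p` is trivial. -/
theorem eq_bot_of_le_commutator_sup_powSub {Y : Type*} [Group Y] [Finite Y] {p : ℕ} [Fact p.Prime]
    (hY : IsPGroup p Y) (N : Subgroup Y) [hN : N.Normal]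
    (h : N ≤ ⁅N, (⊤ : Subgroup Y)⁆ ⊔ powSub p N) : N = ⊥ := by
  haveI : Group.IsNilpotent Y := hY.isNilpotent
  apply eq_bot_of_le_commutator_top
  set N₁ := ⁅N, (⊤ : Subgroup Y)⁆ with hN₁
  haveI : N₁.Normal := inferInstance
  set π := QuotientGroup.mk' N₁ with hπ
  set Nb := N.map π with hNb
  have hcen : Nb ≤ Subgroup.center (Y ⧸ N₁) := by
    rintro _ ⟨x, hx, rfl⟩
    rw [Subgroup.mem_center_iff]
    intro z
    obtain ⟨w, rfl⟩ := QuotientGroup.mk'_surjective N₁ z
    rw [← map_mul, ← map_mul]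
    apply QuotientGroup.eq.mpr
    have : (w * x)⁻¹ * (x * w) = ⁅x⁻¹, w⁻¹⁆ := by rw [commutatorElement_def]; group
    rw [this]
    exact Subgroup.commutator_mem_commutator (N.inv_mem hx) (Subgroup.mem_top _)
  haveI hAc : IsMulCommutative Nb := ⟨⟨fun a b => by
    apply Subtype.ext
    exact ((Subgroup.mem_center_iff.mp (hcen a.2)) b.1).symm⟩⟩
  let pw : Nb →* Nb := powMonoidHom p
  have hsurj : Function.Surjective pw := by
    have h1 : Nb ≤ pw.range.map Nb.subtype := by
      calc Nb ≤ (N₁ ⊔ powSub p N).map π := Subgroup.map_mono h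
        _ = powSub p Nb := by
          rw [Subgroup.map_sup, map_powSub]
          have : N₁.map π = ⊥ := by
            rw [← le_bot_iff, Subgroup.map_le_iff_le_comap]
            intro x hx
            rw [Subgroup.mem_comap, Subgroup.mem_bot]
            exact (QuotientGroup.eq_one_iff x).mpr hx
          rw [this, bot_sup_eq]
        _ ≤ pw.range.map Nb.subtype := by
          unfold powSub
          rw [Subgroup.closure_le]
          rintro _ ⟨b, hb, rfl⟩
          exact ⟨pw ⟨b, hb⟩, ⟨⟨b, hb⟩, rfl⟩, rfl⟩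
    intro b
    obtain ⟨c, ⟨d, rfl⟩, hc⟩ := h1 b.2
    exact ⟨d, Subtype.ext hc⟩
  have hinj : Function.Injective pw := Finite.injective_iff_surjective.mpr hsurj
  have htriv : ∀ (k : ℕ) (b : Nb), b ^ (p ^ k) = 1 → b = 1 := by
    intro k
    induction k with
    | zero => intro b hb; simpa using hb
    | succ k ih =>
      intro b hb
      apply ih
      apply hinj
      change (b ^ (p ^ k)) ^ p = 1 ^ p
      rw [← pow_mul, ← pow_succ, hb, one_pow]
  intro x hx
  have hb : (⟨π x, Subgroup.mem_map_of_mem π hx⟩ : Nb) = 1 := by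
    obtain ⟨k, hk⟩ := hY x
    apply htriv k
    apply Subtype.ext
    change (π x) ^ (p ^ k) = 1
    rw [← map_pow, hk, map_one]
  have : π x = 1 := congrArg Subtype.val hb
  exact (QuotientGroup.eq_one_iff x).mp this

/-- One step of the extension argument: if `V → V/L` extends to `G`, `L/K` is central in the
`p`-group `V/K` and of exponent `p`, the index of `V` is prime to `p` and homomorphisms from `V` to elementary abelian `p`-groups
extend to `G`, then `V → V/K` extends to `G`. -/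
theorem extension_step_exp {G : Type u} [Group G] [Finite G] {p : ℕ} [Fact p.Prime] (V : Subgroup G)
    (hV : Nat.Coprime V.index p)
    (hext : ∀ (A : Type u) [CommGroup A] [Finite A], (∀ a : A, a ^ p = 1) → ∀ δ : V →* A,
      ∃ δ' : G →* A, ∀ v : V, δ' v = δ v)
    (L K : Subgroup V) [L.Normal] [K.Normal] (hKL : K ≤ L) (hc : ⁅L, (⊤ : Subgroup V)⁆ ≤ K)
    (hpow : ∀ x ∈ L, x ^ p ∈ K)
    (hK : IsPGroup p (V ⧸ K))
    (σ : G →* V ⧸ L) (hσ : ∀ v : V, σ v = QuotientGroup.mk' L v) :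
    ∃ σ' : G →* V ⧸ K, ∀ v : V, σ' v = QuotientGroup.mk' K v := by
  have hp : p.Prime := Fact.out
  let τ : V ⧸ K →* V ⧸ L := QuotientGroup.lift K (QuotientGroup.mk' L) (by
    intro x hx
    rw [MonoidHom.mem_ker]
    exact (QuotientGroup.eq_one_iff x).mpr (hKL hx))
  have hτmk : ∀ v : V, τ (QuotientGroup.mk' K v) = QuotientGroup.mk' L v := fun v => rfl
  have hτ : Function.Surjective τ := by
    intro y
    obtain ⟨v, rfl⟩ := QuotientGroup.mk'_surjective L y
    exact ⟨QuotientGroup.mk' K v, hτmk v⟩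
  have hcen : τ.ker ≤ Subgroup.center (V ⧸ K) := by
    intro y hy
    obtain ⟨x, rfl⟩ := QuotientGroup.mk'_surjective K y
    rw [MonoidHom.mem_ker, hτmk] at hy
    have hx : x ∈ L := (QuotientGroup.eq_one_iff x).mp hy
    rw [Subgroup.mem_center_iff]
    intro z
    obtain ⟨w, rfl⟩ := QuotientGroup.mk'_surjective K z
    rw [← map_mul, ← map_mul]
    apply QuotientGroup.eq.mpr
    have : (w * x)⁻¹ * (x * w) = ⁅x⁻¹, w⁻¹⁆ := by rw [commutatorElement_def]; group
    rw [this]
    exact hc (Subgroup.commutator_mem_commutator (L.inv_mem hx) (Subgroup.mem_top _))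
  haveI hAc : IsMulCommutative τ.ker := ⟨⟨fun a b => by
    apply Subtype.ext
    exact ((Subgroup.mem_center_iff.mp (hcen a.2)) b.1).symm⟩⟩
  have hA : IsPGroup p τ.ker := hK.to_subgroup _
  have hn : Function.Bijective (fun a : τ.ker => a ^ V.index) :=
    (hA.powEquiv hV.symm).bijective
  obtain ⟨σ', hσ'⟩ := exists_lift_of_central V τ hτ hcen σ (QuotientGroup.mk' K)
    (fun h => by rw [hτmk, hσ]) hn
  have hmem : ∀ v : V, (QuotientGroup.mk' K v)⁻¹ * σ' v ∈ τ.ker := by
    intro v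
    rw [MonoidHom.mem_ker, map_mul, map_inv, hτmk, hσ', hσ, inv_mul_cancel]
  let δ : V →* τ.ker :=
    { toFun := fun v => ⟨(QuotientGroup.mk' K v)⁻¹ * σ' v, hmem v⟩
      map_one' := by apply Subtype.ext; simp
      map_mul' := by
        intro v w
        apply Subtype.ext
        change (QuotientGroup.mk' K (v * w))⁻¹ * σ' ((v * w : V) : G) =
          ((QuotientGroup.mk' K v)⁻¹ * σ' v) * ((QuotientGroup.mk' K w)⁻¹ * σ' w)
        have h3 := (Subgroup.mem_center_iff.mp (hcen (hmem v))) (QuotientGroup.mk' K w)⁻¹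
        rw [map_mul, Subgroup.coe_mul, map_mul]
        calc (QuotientGroup.mk' K v * QuotientGroup.mk' K w)⁻¹ * (σ' v * σ' w)
            = ((QuotientGroup.mk' K w)⁻¹ * ((QuotientGroup.mk' K v)⁻¹ * σ' v)) * σ' w := by group
          _ = (((QuotientGroup.mk' K v)⁻¹ * σ' v) * (QuotientGroup.mk' K w)⁻¹) * σ' w := by rw [h3]
          _ = _ := by group }
  have hexp : ∀ a : τ.ker, a ^ p = 1 := by
    rintro ⟨y, hy⟩
    obtain ⟨x, rfl⟩ := QuotientGroup.mk'_surjective K y
    rw [MonoidHom.mem_ker, hτmk] at hy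
    have hx : x ∈ L := (QuotientGroup.eq_one_iff x).mp hy
    apply Subtype.ext
    change (QuotientGroup.mk' K x) ^ p = 1
    rw [← map_pow]
    exact (QuotientGroup.eq_one_iff _).mpr (hpow x hx)
  obtain ⟨δ', hδ'⟩ := hext τ.ker hexp δ
  refine ⟨{ toFun := fun g => σ' g * ((δ' g : τ.ker) : V ⧸ K)⁻¹
            map_one' := by simp
            map_mul' := ?_ }, ?_⟩
  · intro g h
    have h3 := (Subgroup.mem_center_iff.mp (hcen (δ' g)⁻¹.2)) (σ' h)
    rw [map_mul, map_mul, Subgroup.coe_mul, mul_inv_rev]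
    have h4 := (Subgroup.mem_center_iff.mp (hcen (δ' g)⁻¹.2)) ((δ' h : τ.ker) : V ⧸ K)⁻¹
    simp only [Subgroup.coe_inv] at h3 h4
    calc σ' g * σ' h * (((δ' h : τ.ker) : V ⧸ K)⁻¹ * ((δ' g : τ.ker) : V ⧸ K)⁻¹)
        = σ' g * (σ' h * ((δ' g : τ.ker) : V ⧸ K)⁻¹) * ((δ' h : τ.ker) : V ⧸ K)⁻¹ := by
          rw [h4]; group
      _ = σ' g * (((δ' g : τ.ker) : V ⧸ K)⁻¹ * σ' h) * ((δ' h : τ.ker) : V ⧸ K)⁻¹ := by rw [h3]
      _ = _ := by group
  · intro v
    change σ' v * ((δ' v : τ.ker) : V ⧸ K)⁻¹ = _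
    rw [hδ']
    change σ' v * ((QuotientGroup.mk' K v)⁻¹ * σ' v)⁻¹ = _
    group

/-- **Tate-type extension theorem.**  If `V ≤ G` has index prime to `p` and every homomorphism from
`V` to an elementary abelian `p`-group extends to `G`, then every `p`-quotient `V → V/W` extends to `G`. -/
theorem exists_extension_of_pQuotient_exp {G : Type u} [Group G] [Finite G] {p : ℕ} [Fact p.Prime]
    (V : Subgroup G) (hV : Nat.Coprime V.index p)
    (hext : ∀ (A : Type u) [CommGroup A] [Finite A], (∀ a : A, a ^ p = 1) → ∀ δ : V →* A,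
      ∃ δ' : G →* A, ∀ v : V, δ' v = δ v)
    (W : Subgroup V) [hWn : W.Normal] (hW : IsPGroup p (V ⧸ W)) :
    ∃ σ : G →* V ⧸ W, ∀ v : V, σ v = QuotientGroup.mk' W v := by
  let Good : Subgroup V → Prop := fun L => W ≤ L ∧ ∃ (_ : L.Normal), ∃ σ : G →* V ⧸ L,
    ∀ v : V, σ v = QuotientGroup.mk' L v
  have htop : Good ⊤ := ⟨le_top, inferInstance, 1, fun v =>
    (QuotientGroup.subsingleton_quotient_top (G := V)).elim _ _⟩
  obtain ⟨L, hL⟩ := (Set.toFinite {L | Good L}).exists_minimal ⟨⊤, htop⟩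
  obtain ⟨hWL, hLn, σ, hσ⟩ := hL.prop
  set K := (⁅L, (⊤ : Subgroup V)⁆ ⊔ powSub p L) ⊔ W with hKdef
  haveI hKn : K.Normal := inferInstance
  have hKL : K ≤ L := sup_le (sup_le (Subgroup.commutator_le_left L ⊤) (powSub_le p L)) hWL
  have hKp : IsPGroup p (V ⧸ K) := by
    intro y
    obtain ⟨v, rfl⟩ := QuotientGroup.mk'_surjective K y
    obtain ⟨k, hk⟩ := hW (QuotientGroup.mk' W v)
    refine ⟨k, ?_⟩
    rw [← map_pow] at hk ⊢
    exact (QuotientGroup.eq_one_iff _).mpr
      ((le_sup_right : W ≤ K) ((QuotientGroup.eq_one_iff _).mp hk))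
  have hKgood : Good K := by
    refine ⟨le_sup_right, hKn, ?_⟩
    exact extension_step_exp V hV hext L K hKL (le_sup_left.trans le_sup_left)
      (fun x hx => (le_sup_left : _ ≤ K) ((le_sup_right : powSub p L ≤ _) (pow_mem_powSub p L hx)))
      hKp σ hσ
  have hLK : L ≤ K := hL.le_of_le hKgood hKL
  haveI : Group.IsNilpotent (V ⧸ W) := hW.isNilpotent
  have hmap : L.map (QuotientGroup.mk' W) = ⊥ := by
    haveI : (L.map (QuotientGroup.mk' W)).Normal :=
      Subgroup.Normal.map hLn _ (QuotientGroup.mk'_surjective W)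
    apply eq_bot_of_le_commutator_sup_powSub hW
    calc L.map (QuotientGroup.mk' W) ≤ K.map (QuotientGroup.mk' W) := Subgroup.map_mono hLK
      _ = ⁅L.map (QuotientGroup.mk' W), (⊤ : Subgroup (V ⧸ W))⁆ ⊔
          powSub p (L.map (QuotientGroup.mk' W)) := by
        rw [hKdef, Subgroup.map_sup, Subgroup.map_sup, Subgroup.map_commutator, map_powSub,
          Subgroup.map_top_of_surjective _ (QuotientGroup.mk'_surjective W)]
        have : W.map (QuotientGroup.mk' W) = ⊥ := by
          rw [← le_bot_iff, Subgroup.map_le_iff_le_comap]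
          intro x hx
          rw [Subgroup.mem_comap, Subgroup.mem_bot]
          exact (QuotientGroup.eq_one_iff x).mpr hx
        rw [this, sup_bot_eq]
  have hLW : L = W := by
    apply le_antisymm _ hWL
    intro x hx
    have : QuotientGroup.mk' W x ∈ L.map (QuotientGroup.mk' W) := Subgroup.mem_map_of_mem _ hx
    rw [hmap, Subgroup.mem_bot] at this
    exact (QuotientGroup.eq_one_iff x).mp this
  subst hLW
  exact ⟨σ, hσ⟩

end Cfsg.Agent.Lib.Helper2
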