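import Mathlib
import Cfsg.Agent.Lib.Helper2.LocalTrace
import Cfsg.Agent.Lib.Helper2.Alperin
import Cfsg.Agent.Lib.Helper2.TateExp
import Cfsg.Agent.S4216
import Cfsg.Prelude.Def_BaumannBlocks

set_option autoImplicit false

universe u

namespace Cfsg.Agent.Lib.Helper2

open Subgroup
open scoped commutatorElement Pointwise

/-- A homomorphism `δ : V → A` to a finite abelian `p`-group whose restriction to the Sylow subgroup
`P ≤ V` is invariant under `G`-fusion extends to `G`. -/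
theorem exists_extension_of_invariant {G : Type*} [Group G] [Finite G] {p : ℕ} [Fact p.Prime]
    (P : Sylow p G) (V : Subgroup G) (hPV : (P : Subgroup G) ≤ V)
    (A : Type*) [CommGroup A] [Finite A] (hA : IsPGroup p A) (δ : V →* A)
    (hinv : ∀ (x : G) (hx : x ∈ (P : Subgroup G)) (g : G) (hg : g * x * g⁻¹ ∈ (P : Subgroup G)),
      δ ⟨g * x * g⁻¹, hPV hg⟩ = δ ⟨x, hPV hx⟩) :
    ∃ δ' : G →* A, ∀ v : V, δ' v = δ v := by
  have hp : p.Prime := Fact.out
  let δP : (P : Subgroup G) →* A := δ.comp (Subgroup.inclusion hPV)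
  have hkill : (P : Subgroup G).focalSubgroupOf ≤ δP.ker := by
    rw [Subgroup.focalSubgroupOf_eq_closure, Subgroup.closure_le]
    rintro g ⟨x, hx, u, hg⟩
    have h1 : u * x⁻¹ * u⁻¹ ∈ (P : Subgroup G) := by
      have : u * x⁻¹ * u⁻¹ = x⁻¹ * ⁅x, u⁆ := by rw [commutatorElement_def]; group
      rw [this, ← hg]
      exact (P : Subgroup G).mul_mem ((P : Subgroup G).inv_mem hx) g.2
    have h2 := hinv x⁻¹ ((P : Subgroup G).inv_mem hx) u h1
    change δ (Subgroup.inclusion hPV g) = 1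
    have h3 : Subgroup.inclusion hPV g = (⟨x, hPV hx⟩ : V) * ⟨u * x⁻¹ * u⁻¹, hPV h1⟩ := by
      apply Subtype.ext
      change (g : G) = x * (u * x⁻¹ * u⁻¹)
      rw [hg, commutatorElement_def]; group
    rw [h3, map_mul, h2, ← map_mul]
    have : (⟨x, hPV hx⟩ : V) * ⟨x⁻¹, hPV ((P : Subgroup G).inv_mem hx)⟩ = 1 := by
      apply Subtype.ext; simp
    rw [this, map_one]
  let δbar : (P : Subgroup G) ⧸ (P : Subgroup G).focalSubgroupOf →* A :=
    QuotientGroup.lift _ δP hkill
  let T : G →* A := δbar.comp (P : Subgroup G).transferFocal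
  have hT : ∀ x : (P : Subgroup G), T x = (δP x) ^ (P : Subgroup G).index := by
    intro x
    change δbar ((P : Subgroup G).transferFocal x) = _
    rw [Subgroup.transferFocal_eq_pow, map_pow]
    rfl
  have hn : p.Coprime (P : Subgroup G).index := (Nat.Prime.coprime_iff_not_dvd hp).mpr P.not_dvd_index
  let e : A ≃* A := MulEquiv.ofBijective (powMonoidHom (P : Subgroup G).index)
    ((hA.powEquiv hn).bijective)
  let δ' : G →* A := e.symm.toMonoidHom.comp T
  have hδ' : ∀ x : (P : Subgroup G), δ' x = δP x := by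
    intro x
    change e.symm (T x) = δP x
    rw [hT, MulEquiv.symm_apply_eq]
    rfl
  refine ⟨δ', ?_⟩
  have htop : (δ'.comp V.subtype).eqLocus δ = ⊤ := by
    rw [eq_top_iff, ← pResidual_sup_sylow (P.subtype hPV)]
    apply sup_le
    · intro v hv
      change (δ'.comp V.subtype) v = δ v
      have h1 := pResidual_le_ker hA (δ'.comp V.subtype) hv
      have h2 := pResidual_le_ker hA δ hv
      rw [MonoidHom.mem_ker] at h1 h2
      rw [h1, h2]
    · intro v hv
      have hv' : (v : G) ∈ (P : Subgroup G) := hv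
      change δ' (v : G) = δ v
      exact hδ' ⟨v, hv'⟩
  intro v
  have : v ∈ (δ'.comp V.subtype).eqLocus δ := by rw [htop]; exact Subgroup.mem_top v
  exact this

section HW

variable {G : Type*} [Group G] {p : ℕ}

theorem sylow_le_normalizer_of_weaklyClosed (P : Sylow p G) (Q : Subgroup G)
    (hQ : Cfsg.IsWeaklyClosed Q (P : Subgroup G)) : (P : Subgroup G) ≤ normalizer (Q : Set G) := by
  intro s hs
  apply conj_mem_normalizer_of_weaklyClosed hQ
  intro z hz
  exact (P : Subgroup G).mul_mem ((P : Subgroup G).mul_mem hs (hQ.1 hz)) ((P : Subgroup G).inv_mem hs)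

variable [Finite G] [Fact p.Prime]

theorem hw_key (P : Sylow p G) (Q : Subgroup G) (hQ : Cfsg.IsWeaklyClosed Q (P : Subgroup G))
    (h : ∀ u ∈ (P : Subgroup G), ∀ z ∈ Q, (fun y : G => y⁻¹ * z⁻¹ * y * z)^[p - 1] u = 1)
    {A : Type*} [CommGroup A] (hexp : ∀ a : A, a ^ p = 1) (N : Subgroup G)
    (hN : N = normalizer (Q : Set G)) (δ : N →* A) :
    ∀ (m : ℕ) (P₁ : Sylow p G), Tame P P₁ →
    Nat.card (P : Subgroup G) - Nat.card ((P : Subgroup G) ⊓ (P₁ : Subgroup G) : Subgroup G) = m →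
    ∀ y ∈ normalizer ((((P : Subgroup G) ⊓ (P₁ : Subgroup G)) : Subgroup G) : Set G),
    ∀ x ∈ (P : Subgroup G) ⊓ (P₁ : Subgroup G),
      x⁻¹ * (y⁻¹ * x * y) ∈ δ.ker.map N.subtype := by
  intro m
  induction m using Nat.strong_induction_on with
  | _ m IHm =>
  intro P₁ ht hm y hy x hx
  set D : Subgroup G := δ.ker.map N.subtype with hD
  have hPN : (P : Subgroup G) ≤ N := hN ▸ sylow_le_normalizer_of_weaklyClosed P Q hQ
  set T : Subgroup G := (P : Subgroup G) ⊓ (P₁ : Subgroup G) with hT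
  set M : Subgroup G := normalizer (T : Set G) with hM
  have hTP : T ≤ (P : Subgroup G) := inf_le_left
  have hconjT : ∀ k ∈ M, ∀ a ∈ T, k⁻¹ * a * k ∈ T := by
    intro k hk a ha
    exact (mem_normalizer_iff''.mp hk a).mp ha
  have hmemD : ∀ (a b : G) (ha : a ∈ N) (hb : b ∈ N), δ ⟨b, hb⟩ = δ ⟨a, ha⟩ → a⁻¹ * b ∈ D := by
    intro a b ha hb hab
    refine Subgroup.mem_map.mpr ⟨(⟨a, ha⟩ : N)⁻¹ * ⟨b, hb⟩, ?_, rfl⟩
    rw [MonoidHom.mem_ker, map_mul, map_inv, hab, inv_mul_cancel]
  have hofD : ∀ (a b : G) (ha : a ∈ N) (hb : b ∈ N), a⁻¹ * b ∈ D → δ ⟨b, hb⟩ = δ ⟨a, ha⟩ := by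
    intro a b ha hb hab
    obtain ⟨w, hw, hw'⟩ := Subgroup.mem_map.mp hab
    have : w = (⟨a, ha⟩ : N)⁻¹ * ⟨b, hb⟩ := Subtype.ext hw'
    rw [this, MonoidHom.mem_ker, map_mul, map_inv, inv_mul_eq_one] at hw
    exact hw.symm
  by_cases hQT : Q ≤ T
  · have hyN : y ∈ N := by
      have : y⁻¹ ∈ N := by
        rw [hN]
        apply conj_mem_normalizer_of_weaklyClosed hQ
        intro z hz
        have := hconjT y hy z (hQT hz)
        rw [inv_inv]
        exact hTP this
      simpa using N.inv_mem this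
    have hxN : x ∈ N := hPN (hTP hx)
    apply hmemD x (y⁻¹ * x * y) hxN (N.mul_mem (N.mul_mem (N.inv_mem hyN) hxN) hyN)
    have : (⟨y⁻¹ * x * y, N.mul_mem (N.mul_mem (N.inv_mem hyN) hxN) hyN⟩ : N) =
        (⟨y, hyN⟩ : N)⁻¹ * ⟨x, hxN⟩ * ⟨y, hyN⟩ := rfl
    rw [this, map_mul, map_mul, map_inv, mul_comm, mul_inv_cancel_left]
  · -- an element of `N_Q(T)` outside `T`
    have hTQ : T ≤ normalizer (Q : Set G) := hN ▸ hTP.trans hPN
    have hlt : T < T ⊔ Q := by
      refine lt_of_le_of_ne le_sup_left ?_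
      intro heq
      apply hQT
      rw [heq]; exact le_sup_right
    have hTQp : IsPGroup p (T ⊔ Q : Subgroup G) := P.2.to_le (sup_le hTP hQ.1)
    obtain ⟨u, huR, huN, huT⟩ := exists_mem_normalizer_not_mem (T ⊔ Q) T hTQp hlt
    have huR' : u ∈ ((T ⊔ Q : Subgroup G) : Set G) := huR
    rw [Subgroup.coe_mul_of_left_le_normalizer_right T Q hTQ] at huR'
    obtain ⟨t, ht', z₀, hz₀, rfl⟩ := huR'
    have ht'' : t ∈ T := ht'
    have hz₀Q : z₀ ∈ Q := hz₀
    have hz₀M : z₀ ∈ M := by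
      have h1 : t⁻¹ * (t * z₀) ∈ M := M.mul_mem (M.inv_mem (Subgroup.le_normalizer ht'')) huN
      simpa using h1
    have hz₀T : z₀ ∉ T := fun hz => huT (T.mul_mem ht'' hz)
    set S : Subgroup G := (P : Subgroup G) ⊓ M with hS
    have hSN : S ≤ N := inf_le_left.trans hPN
    have hTS : T ≤ S := le_inf hTP Subgroup.le_normalizer
    let l : S →* A := δ.comp (Subgroup.inclusion hSN)
    have hl : ∀ (a : G) (ha : a ∈ S), l ⟨a, ha⟩ = δ ⟨a, hSN ha⟩ := fun a ha => rfl
    let 𝒴 : Set G := ((Q ⊓ M : Subgroup G) : Set G)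
    have key := local_trace M S T hTS inf_le_right le_rfl (P.2.to_le inf_le_left) ht.1 hexp l 𝒴
      (fun y hy => ⟨hQ.1 hy.1, hy.2⟩)
      (fun s hs y hy => by
        refine ⟨?_, M.mul_mem (M.mul_mem hs.2 hy.2) (M.inv_mem hs.2)⟩
        exact (mem_normalizer_iff.mp (hN ▸ hPN hs.1) y).mp hy.1)
      (fun y hy a ha => h a (hTP ha) y hy.1)
      (fun g hg hgy a ha ha' haT => by
        rw [hl, hl]
        apply hofD
        let Aset : Set G := (T : Set G) ∪ 𝒴
        have hchain : AChain P Aset g := by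
          apply alperin_chain P Aset g
          · rintro b (hb | hb)
            · exact hTP hb
            · exact hQ.1 hb.1
          · rw [cc_smul_set]
            rintro _ ⟨b, (hb | hb), rfl⟩
            · exact hTP (hconjT g hg b hb)
            · exact (hgy b hb).1
        have hcard : Nat.card T < Aset.ncard := by
          change Nat.card (T : Set G) < _
          rw [Nat.card_coe_set_eq]
          apply Set.ncard_lt_ncard _ (Set.toFinite _)
          refine ⟨Set.subset_union_left, ?_⟩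
          intro hsub
          exact hz₀T (hsub (Or.inr ⟨hz₀Q, hz₀M⟩))
        exact Cfsg.Agent.S4216.chain_lemma P D (Nat.card T) (by
          intro Q' ht' hc' y' hy' x' hx'
          have hle : Nat.card ((P : Subgroup G) ⊓ (Q' : Subgroup G) : Subgroup G) ≤
              Nat.card (P : Subgroup G) := Subgroup.card_le_of_le inf_le_left
          exact IHm _ (by omega) Q' ht' rfl y' hy' x' hx') Aset g hchain hcard a (Or.inl haT))
    have h1 := key y hy x (hTS hx) (hTS (hconjT y hy x hx)) hx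
    rw [hl, hl] at h1
    exact hmemD _ _ _ _ h1

/-- Under the Hall–Wielandt hypotheses, homomorphisms from `N_G(Q)` to groups of exponent `p` are
invariant under `G`-fusion in `P`. -/
theorem hw_invariant (P : Sylow p G) (Q : Subgroup G) (hQ : Cfsg.IsWeaklyClosed Q (P : Subgroup G))
    (h : ∀ u ∈ (P : Subgroup G), ∀ z ∈ Q, (fun y : G => y⁻¹ * z⁻¹ * y * z)^[p - 1] u = 1)
    {A : Type*} [CommGroup A] (hexp : ∀ a : A, a ^ p = 1) (δ : normalizer (Q : Set G) →* A)
    (x : G) (hx : x ∈ (P : Subgroup G)) (g : G) (hg : g * x * g⁻¹ ∈ (P : Subgroup G)) :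
    δ ⟨g * x * g⁻¹, sylow_le_normalizer_of_weaklyClosed P Q hQ hg⟩ =
      δ ⟨x, sylow_le_normalizer_of_weaklyClosed P Q hQ hx⟩ := by
  have hchain : AChain P {x} g⁻¹ := by
    apply alperin_chain P {x} g⁻¹
    · intro a ha
      rw [Set.mem_singleton_iff.mp ha]
      exact hx
    · rw [cc_smul_set]
      rintro _ ⟨a, ha, rfl⟩
      rw [Set.mem_singleton_iff.mp ha, inv_inv]
      exact hg
  have := Cfsg.Agent.S4216.chain_lemma P (δ.ker.map (normalizer (Q : Set G)).subtype) 0
    (fun P₁ ht _ y hy a ha => hw_key P Q hQ h hexp _ rfl δ _ P₁ ht rfl y hy a ha)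
    {x} g⁻¹ hchain (by simp) x rfl
  rw [inv_inv] at this
  obtain ⟨w, hw, hw'⟩ := Subgroup.mem_map.mp this
  have hw2 : w = (⟨x, sylow_le_normalizer_of_weaklyClosed P Q hQ hx⟩ : normalizer (Q : Set G))⁻¹ *
      ⟨g * x * g⁻¹, sylow_le_normalizer_of_weaklyClosed P Q hQ hg⟩ := Subtype.ext hw'
  rw [hw2, MonoidHom.mem_ker, map_mul, map_inv, inv_mul_eq_one] at hw
  exact hw.symm

end HW

/-- **Hall–Wielandt** (with Tate's theorem): `O^p(N_G(Q)) = O^p(G) ∩ N_G(Q)`. -/
theorem hall_wielandt {G : Type u} [Group G] [Finite G] {p : ℕ} [Fact p.Prime] (P : Sylow p G)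
    (Q : Subgroup G) (hQ : Cfsg.IsWeaklyClosed Q (P : Subgroup G))
    (h : ∀ u ∈ (P : Subgroup G), ∀ z ∈ Q, (fun y : G => y⁻¹ * z⁻¹ * y * z)^[p - 1] u = 1) :
    Cfsg.pResidualOf p (Subgroup.normalizer (Q : Set G)) =
      Cfsg.pResidual p G ⊓ Subgroup.normalizer (Q : Set G) := by
  have hp : p.Prime := Fact.out
  set N : Subgroup G := normalizer (Q : Set G) with hN
  have hPN : (P : Subgroup G) ≤ N := sylow_le_normalizer_of_weaklyClosed P Q hQ
  apply le_antisymm
  · exact le_inf (map_pResidual_subtype_le p N) (Subgroup.map_subtype_le _)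
  · have hV : Nat.Coprime N.index p := by
      have h1 : N.index ∣ (P : Subgroup G).index := Subgroup.index_dvd_of_le hPN
      have hn : p.Coprime (P : Subgroup G).index :=
        (Nat.Prime.coprime_iff_not_dvd hp).mpr P.not_dvd_index
      exact (Nat.Coprime.coprime_dvd_right h1 hn).symm
    obtain ⟨σ, hσ⟩ := exists_extension_of_pQuotient_exp N hV
      (fun A _ _ hA δ => exists_extension_of_invariant P N hPN A
        (fun a => ⟨1, by rw [pow_one]; exact hA a⟩) δ
        (fun x hx g hg => hw_invariant P Q hQ h hA δ x hx g hg))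
      (Cfsg.pResidual p N) (isPGroup_quotient_pResidual p)
    intro x hx
    have h1 : x ∈ σ.ker := pResidual_le_ker (isPGroup_quotient_pResidual p) σ hx.1
    rw [MonoidHom.mem_ker] at h1
    have h2 := hσ ⟨x, hx.2⟩
    rw [h1] at h2
    exact Subgroup.mem_map.mpr ⟨⟨x, hx.2⟩, (QuotientGroup.eq_one_iff _).mp h2.symm, rfl⟩

end Cfsg.Agent.Lib.Helper2
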