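import Mathlib

/-!
# Piece D of the S3797 farm (helper2): a minimal normal 2-section on which odd elements act
-/

set_option autoImplicit false

namespace Cfsg.Agent.Lib.Helper2.OneClassD

section aux

variable {G : Type*} [Group G]

theorem trick {N : Subgroup G} (hN : N.Normal) (hN2 : IsPGroup 2 N) {x y : G}
    (hx : x ∈ N) (hy : Odd (orderOf y))
    (hc : (x * y * x⁻¹ * y⁻¹) * y = y * (x * y * x⁻¹ * y⁻¹)) : x * y = y * x := by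
  obtain ⟨c, hcdef⟩ : ∃ c, c = x * y * x⁻¹ * y⁻¹ := ⟨_, rfl⟩
  rw [← hcdef] at hc
  have hcN : c ∈ N := by
    have h1 : c = x * (y * x⁻¹ * y⁻¹) := by rw [hcdef]; group
    rw [h1]
    exact N.mul_mem hx (hN.conj_mem x⁻¹ (N.inv_mem hx) y)
  have h1 : c * y = x * y * x⁻¹ := by rw [hcdef]; group
  have h2 : (c * y) ^ orderOf y = c ^ orderOf y := by
    rw [(show Commute c y from hc).mul_pow, pow_orderOf_eq_one, mul_one]
  have h3 : c ^ orderOf y = 1 := by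
    rw [← h2, h1, conj_pow, pow_orderOf_eq_one]; group
  obtain ⟨k, hk⟩ := hN2 ⟨c, hcN⟩
  have hk' : c ^ 2 ^ k = 1 := by simpa using congrArg Subtype.val hk
  have hcop : Nat.Coprime (orderOf y) (2 ^ k) :=
    Nat.Coprime.pow_right k (Nat.coprime_two_right.mpr hy)
  have hc1 : c = 1 := by
    have h4 := orderOf_dvd_of_pow_eq_one h3
    have h5 := orderOf_dvd_of_pow_eq_one hk'
    have h6 : orderOf c ∣ 1 := by
      have := Nat.dvd_gcd h4 h5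
      rwa [hcop.gcd_eq_one] at this
    exact orderOf_eq_one_iff.mp (Nat.dvd_one.mp h6)
  rw [hc1, one_mul] at h1
  calc x * y = (x * y * x⁻¹) * x := by group
    _ = y * x := by rw [← h1]

theorem sq_mul (u v : G) : (u * v) ^ 2 = u ^ 2 * (u⁻¹ * v * u⁻¹⁻¹ * v⁻¹) * v ^ 2 := by
  simp only [pow_two]; group

/-- `{x ∈ D | x ^ 2 ∈ M}` when `M` contains the commutators of `D`. -/
def sqSub (D M : Subgroup G) (hcomm : ∀ x ∈ D, ∀ y ∈ D, x * y * x⁻¹ * y⁻¹ ∈ M) : Subgroup G where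
  carrier := {x | x ∈ D ∧ x ^ 2 ∈ M}
  one_mem' := ⟨D.one_mem, by rw [one_pow]; exact M.one_mem⟩
  mul_mem' := by
    rintro x y ⟨hx, hx2⟩ ⟨hy, hy2⟩
    refine ⟨D.mul_mem hx hy, ?_⟩
    rw [sq_mul]
    exact M.mul_mem (M.mul_mem hx2 (hcomm _ (D.inv_mem hx) _ hy)) hy2
  inv_mem' := by
    rintro x ⟨hx, hx2⟩
    exact ⟨D.inv_mem hx, by rw [inv_pow]; exact M.inv_mem hx2⟩

theorem mem_sqSub {D M : Subgroup G} {hcomm : ∀ x ∈ D, ∀ y ∈ D, x * y * x⁻¹ * y⁻¹ ∈ M} {x : G} :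
    x ∈ sqSub D M hcomm ↔ x ∈ D ∧ x ^ 2 ∈ M := Iff.rfl

theorem sqSub_normal {D M : Subgroup G} (hD : D.Normal) (hM : M.Normal)
    (hcomm : ∀ x ∈ D, ∀ y ∈ D, x * y * x⁻¹ * y⁻¹ ∈ M) : (sqSub D M hcomm).Normal :=
  ⟨fun x hx g => ⟨hD.conj_mem x hx.1 g, by rw [conj_pow]; exact hM.conj_mem _ hx.2 g⟩⟩

/-- the squares of a commutative subgroup -/
def sqImg (Z : Subgroup G) (hZ : ∀ z ∈ Z, ∀ z' ∈ Z, z * z' = z' * z) : Subgroup G where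
  carrier := {w | ∃ z ∈ Z, z ^ 2 = w}
  one_mem' := ⟨1, Z.one_mem, one_pow 2⟩
  mul_mem' := by
    rintro _ _ ⟨z, hz, rfl⟩ ⟨z', hz', rfl⟩
    exact ⟨z * z', Z.mul_mem hz hz', (show Commute z z' from hZ z hz z' hz').mul_pow 2⟩
  inv_mem' := by
    rintro _ ⟨z, hz, rfl⟩
    exact ⟨z⁻¹, Z.inv_mem hz, inv_pow z 2⟩

theorem mem_sqImg {Z : Subgroup G} {hZ : ∀ z ∈ Z, ∀ z' ∈ Z, z * z' = z' * z} {w : G} :
    w ∈ sqImg Z hZ ↔ ∃ z ∈ Z, z ^ 2 = w := Iff.rfl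

theorem sqImg_normal {Z : Subgroup G} (hZn : Z.Normal)
    (hZ : ∀ z ∈ Z, ∀ z' ∈ Z, z * z' = z' * z) : (sqImg Z hZ).Normal :=
  ⟨by
    rintro _ ⟨z, hz, rfl⟩ g
    exact ⟨g * z * g⁻¹, hZn.conj_mem z hz g, conj_pow⟩⟩

theorem exists_last_pow {M : Subgroup G} {x : G} (hx : x ∉ M) (k : ℕ) (hk : x ^ 2 ^ k ∈ M) :
    ∃ j, x ^ 2 ^ j ∉ M ∧ (x ^ 2 ^ j) ^ 2 ∈ M := by
  induction k with
  | zero => exact absurd (by simpa using hk) hx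
  | succ k ih =>
    by_cases h : x ^ 2 ^ k ∈ M
    · exact ih h
    · exact ⟨k, h, by rw [← pow_mul, ← pow_succ]; exact hk⟩

end aux

theorem exists_minimal_section {G : Type*} [Group G] [Finite G] (hsol : Group.IsSolvable G)
    (V L T : Subgroup G) (hVn : V.Normal) (hLn : L.Normal) (hTn : T.Normal)
    (hV : ∀ x : G, x ∈ V ↔ x ^ 2 = 1)
    (hconj : ∀ x y : G, x ≠ 1 → x ^ 2 = 1 → y ≠ 1 → y ^ 2 = 1 → IsConj x y)
    (hLV : ∀ y ∈ L, ∀ v ∈ V, y * v = v * y) (hT : IsPGroup 2 T)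
    (hLT : ∃ y ∈ L, Odd (orderOf y) ∧ ∃ x ∈ T, x * y ≠ y * x) :
    ∃ D : Subgroup G, D.Normal ∧ IsPGroup 2 D ∧ V ≤ D ∧ (∀ x ∈ D, x ^ 2 ∈ V) ∧
      (∀ x ∈ D, ∀ y ∈ D, x * y * x⁻¹ * y⁻¹ ∈ V) ∧ (∀ x ∈ D, ∀ v ∈ V, x * v = v * x) ∧
      (∀ X : Subgroup G, X.Normal → X ≤ D → X ≠ D → X ≤ V) ∧
      (∃ y ∈ L, Odd (orderOf y) ∧ ∃ x ∈ D, x * y ≠ y * x) := by
  classical
  obtain ⟨YY, hYY⟩ : ∃ YY : Set G, YY = {y | y ∈ L ∧ Odd (orderOf y)} := ⟨_, rfl⟩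
  have hYYmem : ∀ y, y ∈ YY ↔ y ∈ L ∧ Odd (orderOf y) := by intro y; rw [hYY]; rfl
  have hYYconj : ∀ y ∈ YY, ∀ g : G, g * y * g⁻¹ ∈ YY := by
    intro y hy g
    rw [hYYmem] at hy ⊢
    refine ⟨hLn.conj_mem y hy.1 g, ?_⟩
    have := (MulAut.conj g).orderOf_eq y
    rw [MulAut.conj_apply] at this
    rw [this]; exact hy.2
  obtain ⟨Cen, hCen⟩ : ∃ Cen : Subgroup G, Cen = Subgroup.centralizer YY := ⟨_, rfl⟩
  have hCenmem : ∀ c, c ∈ Cen ↔ ∀ y ∈ YY, y * c = c * y := by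
    intro c; rw [hCen, Subgroup.mem_centralizer_iff]
  have hCenN : Cen.Normal := by
    refine ⟨fun c hc g => ?_⟩
    rw [hCenmem] at hc ⊢
    intro y hy
    have h := hc _ (hYYconj y hy g⁻¹)
    calc y * (g * c * g⁻¹) = g * ((g⁻¹ * y * g⁻¹⁻¹) * c) * g⁻¹ := by group
      _ = g * (c * (g⁻¹ * y * g⁻¹⁻¹)) * g⁻¹ := by rw [h]
      _ = g * c * g⁻¹ * y := by group
  -- the minimal choice
  have hPT : T.Normal ∧ IsPGroup 2 T ∧ ¬ T ≤ Cen := by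
    refine ⟨hTn, hT, fun hle => ?_⟩
    obtain ⟨y, hyL, hyo, x, hxT, hxy⟩ := hLT
    exact hxy (((hCenmem x).mp (hle hxT)) y ((hYYmem y).mpr ⟨hyL, hyo⟩)).symm
  obtain ⟨D, ⟨hDn, hD2, hDC⟩, hmin⟩ : ∃ D : Subgroup G, (D.Normal ∧ IsPGroup 2 D ∧ ¬ D ≤ Cen) ∧
      ∀ X : Subgroup G, (X.Normal ∧ IsPGroup 2 X ∧ ¬ X ≤ Cen) → Nat.card D ≤ Nat.card X := by
    have hne : ∃ n, ∃ D : Subgroup G, (D.Normal ∧ IsPGroup 2 D ∧ ¬ D ≤ Cen) ∧ Nat.card D = n :=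
      ⟨_, T, hPT, rfl⟩
    obtain ⟨D, hD, hn⟩ := Nat.find_spec hne
    exact ⟨D, hD, fun X hX => hn ▸ Nat.find_min' hne ⟨X, hX, rfl⟩⟩
  obtain ⟨Z0, hZ0⟩ : ∃ Z0 : Subgroup G, Z0 = D ⊓ Cen := ⟨_, rfl⟩
  have hZ0mem : ∀ x, x ∈ Z0 ↔ x ∈ D ∧ x ∈ Cen := by intro x; rw [hZ0]; exact Subgroup.mem_inf
  have hZ0n : Z0.Normal := by rw [hZ0]; exact Subgroup.normal_inf_normal D Cen
  have hZ0D : Z0 ≤ D := by rw [hZ0]; exact inf_le_left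
  -- (a)
  have ha : ∀ X : Subgroup G, X.Normal → X ≤ D → X ≠ D → X ≤ Z0 := by
    intro X hXn hXD hne
    by_contra hcon
    have hXC : ¬ X ≤ Cen := fun h => hcon (by rw [hZ0]; exact le_inf hXD h)
    have := hmin X ⟨hXn, hD2.to_le hXD, hXC⟩
    exact hne (Subgroup.eq_of_le_of_card_ge hXD this)
  have hcD : ∀ x ∈ D, ∀ y : G, x * y * x⁻¹ * y⁻¹ ∈ D := by
    intro x hx y
    have h1 : x * y * x⁻¹ * y⁻¹ = x * (y * x⁻¹ * y⁻¹) := by group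
    rw [h1]
    exact D.mul_mem hx (hDn.conj_mem x⁻¹ (D.inv_mem hx) y)
  have hkey : ∀ M : Subgroup G, M.Normal → M ≤ D →
      (∀ x ∈ D, ∀ y ∈ YY, x * y * x⁻¹ * y⁻¹ ∈ M) → M = D := by
    intro M hMn hMD hM
    by_contra hne
    have hMZ := ha M hMn hMD hne
    apply hDC
    intro x hx
    rw [hCenmem]
    intro y hy
    have hcC : x * y * x⁻¹ * y⁻¹ ∈ Cen := ((hZ0mem _).mp (hMZ (hM x hx y hy))).2
    rw [hCenmem] at hcC
    exact (trick hDn hD2 hx ((hYYmem y).mp hy).2 (hcC y hy).symm).symm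
  -- (c) `Z0` is central in `D`
  have hcen : ∀ x ∈ D, ∀ z ∈ Z0, x * z = z * x := by
    have hCDn : (D ⊓ Subgroup.centralizer (Z0 : Set G)).Normal :=
      Subgroup.normal_inf_normal D _
    have h := hkey (D ⊓ Subgroup.centralizer (Z0 : Set G)) hCDn inf_le_left (by
      intro x hx y hy
      refine Subgroup.mem_inf.mpr ⟨hcD x hx y, ?_⟩
      rw [Subgroup.mem_centralizer_iff]
      intro z hz
      have h1 : y * z = z * y := ((hCenmem z).mp ((hZ0mem z).mp hz).2) y hy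
      have hz' : x⁻¹ * z * x⁻¹⁻¹ ∈ Z0 := hZ0n.conj_mem z hz x⁻¹
      have h2 : y * (x⁻¹ * z * x⁻¹⁻¹) = (x⁻¹ * z * x⁻¹⁻¹) * y :=
        ((hCenmem _).mp ((hZ0mem _).mp hz').2) y hy
      have h1' : z * y⁻¹ = y⁻¹ * z := (Commute.inv_right (show Commute z y from h1.symm)).eq
      calc z * (x * y * x⁻¹ * y⁻¹) = x * ((x⁻¹ * z * x⁻¹⁻¹) * y) * x⁻¹ * y⁻¹ := by group
        _ = x * (y * (x⁻¹ * z * x⁻¹⁻¹)) * x⁻¹ * y⁻¹ := by rw [h2]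
        _ = x * y * x⁻¹ * (z * y⁻¹) := by group
        _ = x * y * x⁻¹ * (y⁻¹ * z) := by rw [h1']
        _ = x * y * x⁻¹ * y⁻¹ * z := by group)
    intro x hx z hz
    have hx' : x ∈ D ⊓ Subgroup.centralizer (Z0 : Set G) := by rw [h]; exact hx
    exact ((Subgroup.mem_centralizer_iff.mp (Subgroup.mem_inf.mp hx').2) z hz).symm
  have hDne : D ≠ ⊥ := by
    rintro rfl
    exact hDC bot_le
  -- (d)
  have hDD : ∀ x ∈ D, ∀ y ∈ D, x * y * x⁻¹ * y⁻¹ ∈ Z0 := by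
    intro x hx y hy
    have h1 : ⁅D, D⁆ ≤ Z0 :=
      ha ⁅D, D⁆ (Subgroup.commutator_normal D D) (Subgroup.commutator_le_left D D)
        (Group.IsSolvable.commutator_lt_of_ne_bot hDne).ne
    have h2 := h1 (Subgroup.commutator_mem_commutator hx hy)
    rwa [commutatorElement_def] at h2
  -- (e)
  have hsq : ∀ x ∈ D, x ^ 2 ∈ Z0 := by
    have hE : sqSub D Z0 hDD = D := by
      by_contra hne
      have hle := ha _ (sqSub_normal hDn hZ0n hDD) (fun x hx => hx.1) hne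
      obtain ⟨x, hxD, hxC⟩ := SetLike.not_le_iff_exists.mp hDC
      have hxZ : x ∉ Z0 := fun h => hxC ((hZ0mem x).mp h).2
      obtain ⟨k, hk⟩ := hD2 ⟨x, hxD⟩
      have hk' : x ^ 2 ^ k = 1 := by simpa using congrArg Subtype.val hk
      obtain ⟨j, hj1, hj2⟩ := exists_last_pow hxZ k (by rw [hk']; exact Z0.one_mem)
      exact hj1 (hle ⟨D.pow_mem hxD _, hj2⟩)
    intro x hx
    have : x ∈ sqSub D Z0 hDD := by rw [hE]; exact hx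
    exact this.2
  have hcommV : ∀ x ∈ D, ∀ y ∈ D, x * y * x⁻¹ * y⁻¹ ∈ V := by
    intro x hx y hy
    rw [hV]
    have hc := hDD x hx y hy
    have h1 : x * (x * y * x⁻¹ * y⁻¹) = (x * y * x⁻¹ * y⁻¹) * x := hcen x hx _ hc
    have h2 : y * x ^ 2 = x ^ 2 * y := hcen y hy _ (hsq x hx)
    calc (x * y * x⁻¹ * y⁻¹) ^ 2 = ((x * y * x⁻¹ * y⁻¹) * x) * y * x⁻¹ * y⁻¹ := by
          rw [pow_two]; group
      _ = (x * (x * y * x⁻¹ * y⁻¹)) * y * x⁻¹ * y⁻¹ := by rw [h1]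
      _ = (x ^ 2 * y) * (x ^ 2)⁻¹ * y⁻¹ := by simp only [pow_two]; group
      _ = (y * x ^ 2) * (x ^ 2)⁻¹ * y⁻¹ := by rw [h2]
      _ = 1 := by group
  -- (f)
  have hVle : ∀ N : Subgroup G, N.Normal → IsPGroup 2 N → N ≠ ⊥ → V ≤ N := by
    intro N hNn hN2 hNne v hv
    by_cases hv1 : v = 1
    · rw [hv1]; exact N.one_mem
    obtain ⟨x, hxN, hx1⟩ : ∃ x : G, x ∈ N ∧ x ≠ 1 := by
      obtain ⟨x, hx⟩ := Subgroup.ne_bot_iff_exists_ne_one.mp hNne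
      exact ⟨x, x.2, fun h => hx (Subtype.ext h)⟩
    obtain ⟨k, hk⟩ := hN2 ⟨x, hxN⟩
    have hk' : x ^ 2 ^ k = 1 := by simpa using congrArg Subtype.val hk
    obtain ⟨j, hj1, hj2⟩ := exists_last_pow (M := ⊥) (x := x) (by simpa using hx1) k
      (by rw [hk']; exact Subgroup.one_mem _)
    rw [Subgroup.mem_bot] at hj1 hj2
    obtain ⟨g, hg⟩ := isConj_iff.mp (hconj _ v hj1 hj2 hv1 ((hV v).mp hv))
    rw [← hg]
    exact hNn.conj_mem _ (N.pow_mem hxN _) g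
  have hVD : V ≤ D := hVle D hDn hD2 hDne
  have hVZ0 : V ≤ Z0 := by
    intro v hv
    rw [hZ0mem, hCenmem]
    exact ⟨hVD hv, fun y hy => hLV y ((hYYmem y).mp hy).1 v hv⟩
  have hZ0comm : ∀ z ∈ Z0, ∀ z' ∈ Z0, z * z' = z' * z := fun z hz z' hz' =>
    hcen z (hZ0D hz) z' hz'
  -- (g)
  have hexp : ∀ z ∈ Z0, z ^ 2 = 1 := by
    by_contra hcon
    push Not at hcon
    obtain ⟨z0, hz0, hz0ne⟩ := hcon
    have hZ2n : (sqImg Z0 hZ0comm).Normal := sqImg_normal hZ0n hZ0comm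
    have hZ2le : sqImg Z0 hZ0comm ≤ Z0 := by
      rintro _ ⟨z, hz, rfl⟩
      exact Z0.pow_mem hz 2
    have hZ2ne : sqImg Z0 hZ0comm ≠ ⊥ := by
      intro h
      have : z0 ^ 2 ∈ sqImg Z0 hZ0comm := ⟨z0, hz0, rfl⟩
      rw [h, Subgroup.mem_bot] at this
      exact hz0ne this
    have hVZ2 : V ≤ sqImg Z0 hZ0comm :=
      hVle _ hZ2n (hD2.to_le (hZ2le.trans hZ0D)) hZ2ne
    have hcomm2 : ∀ x ∈ D, ∀ y ∈ D, x * y * x⁻¹ * y⁻¹ ∈ sqImg Z0 hZ0comm :=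
      fun x hx y hy => hVZ2 (hcommV x hx y hy)
    have hD2eq : sqSub D (sqImg Z0 hZ0comm) hcomm2 = D := by
      refine hkey _ (sqSub_normal hDn hZ2n hcomm2) (fun x hx => hx.1) ?_
      intro x hx y hy
      refine ⟨hcD x hx y, hVZ2 ?_⟩
      have hvD : y * x⁻¹ * y⁻¹ ∈ D := hDn.conj_mem x⁻¹ (D.inv_mem hx) y
      have h1 : x * y * x⁻¹ * y⁻¹ = x * (y * x⁻¹ * y⁻¹) := by group
      have h2 : y * x ^ 2 = x ^ 2 * y :=
        ((hCenmem _).mp ((hZ0mem _).mp (hsq x hx)).2) y hy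
      have h3 : (y * x⁻¹ * y⁻¹) ^ 2 = (x ^ 2)⁻¹ := by
        rw [conj_pow, inv_pow, (Commute.inv_right (show Commute y (x ^ 2) from h2)).eq,
          mul_inv_cancel_right]
      rw [h1, sq_mul, h3]
      exact hVn.conj_mem _ (hcommV _ (D.inv_mem hx) _ hvD) (x ^ 2)
    apply hDC
    intro x hx
    have hx2 : x ∈ sqSub D (sqImg Z0 hZ0comm) hcomm2 := by rw [hD2eq]; exact hx
    obtain ⟨z, hz, hzx⟩ := hx2.2
    have h1 : (x * z⁻¹) ^ 2 = 1 := by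
      rw [(show Commute x z⁻¹ from hcen x hx _ (Z0.inv_mem hz)).mul_pow, inv_pow, hzx,
        mul_inv_cancel]
    have h2 : x * z⁻¹ ∈ Z0 := hVZ0 ((hV _).mpr h1)
    have h3 : x ∈ Z0 := by
      have := Z0.mul_mem h2 hz
      rwa [inv_mul_cancel_right] at this
    exact ((hZ0mem x).mp h3).2
  have hZ0V : Z0 ≤ V := fun z hz => (hV z).mpr (hexp z hz)
  refine ⟨D, hDn, hD2, hVD, fun x hx => hZ0V (hsq x hx), hcommV,
    fun x hx v hv => hcen x hx v (hVZ0 hv), fun X hXn hXD hne => (ha X hXn hXD hne).trans hZ0V, ?_⟩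
  obtain ⟨x, hxD, hxC⟩ := SetLike.not_le_iff_exists.mp hDC
  rw [hCenmem] at hxC
  push Not at hxC
  obtain ⟨y, hy, hyx⟩ := hxC
  exact ⟨y, ((hYYmem y).mp hy).1, ((hYYmem y).mp hy).2, x, hxD, fun h => hyx h.symm⟩

end Cfsg.Agent.Lib.Helper2.OneClassD
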